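import Mathlib
import Cfsg.Prelude.Def_LieExceptional
import Cfsg.Agent.Lib.Helper4.NilpFusion
import Cfsg.Agent.Lib.Helper20.Fitting

set_option autoImplicit false
open Cfsg
open scoped Pointwise

namespace Cfsg.Agent.Lib.Helper4

variable {G : Type*} [Group G]

/-- maximal nilpotent subgroups -/
def IsMaxNilp (H : Subgroup G) : Prop :=
  Group.IsNilpotent H ∧ ∀ L : Subgroup G, Group.IsNilpotent L → H ≤ L → L = H

theorem isPGroup_zpowers_of_pow {p k : ℕ} {x : G} (h : x ^ p ^ k = 1) :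
    IsPGroup p (Subgroup.zpowers x) := by
  rintro ⟨w, hw⟩
  obtain ⟨i, rfl⟩ := Subgroup.mem_zpowers_iff.mp hw
  refine ⟨k, Subtype.ext ?_⟩
  show (x ^ i) ^ p ^ k = 1
  rw [← zpow_natCast, ← zpow_mul, mul_comm, zpow_mul, zpow_natCast, h, one_zpow]

theorem exists_central_pelement [Finite G] {H : Subgroup G} (hH : Group.IsNilpotent H) {p : ℕ}
    [Fact p.Prime] (hp : p ∣ Nat.card H) :
    ∃ x ∈ H, x ≠ 1 ∧ (∃ k : ℕ, x ^ p ^ k = 1) ∧ ∀ h ∈ H, h * x = x * h := by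
  obtain ⟨P0⟩ : Nonempty (Sylow p H) := inferInstance
  have hn : (P0 : Subgroup H).Normal :=
    ((Group.isNilpotent_of_finite_tfae (G := H)).out 0 3 rfl rfl).mp hH p inferInstance P0
  have hne : (P0 : Subgroup H) ≠ ⊥ := P0.ne_bot_of_dvd_card hp
  obtain ⟨x, hx, hxc, hx1⟩ := Cfsg.Agent.Lib.Helper20.normal_inf_center_ne_bot (P0 : Subgroup H) hne
  obtain ⟨k, hk⟩ := P0.2 ⟨x, hx⟩
  refine ⟨x, x.2, fun h => hx1 (Subtype.ext h), ⟨k, ?_⟩, ?_⟩
  · have := congrArg (fun z : (P0 : Subgroup H) => ((z : H) : G)) hk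
    simpa using this
  · intro h hh
    have := (Subgroup.mem_center_iff.mp hxc) ⟨h, hh⟩
    exact congrArg Subtype.val this

theorem IsMaxNilp.centralizer_eq (hCN : IsCNGroup G) {H : Subgroup G} (hH : IsMaxNilp H) {z : G}
    (hz : z ≠ 1) (hzc : ∀ h ∈ H, h * z = z * h) : Subgroup.centralizer ({z} : Set G) = H :=
  hH.2 _ (hCN z hz) (fun h hh => Subgroup.mem_centralizer_singleton_iff.mpr (hzc h hh))

theorem le_of_centralizers_le [Finite G] {H L : Subgroup G} (hH : Group.IsNilpotent H) {p q : ℕ}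
    (hp : p.Prime) (hq : q.Prime) (hpq : p ≠ q) {x0 y0 : G} (hx0 : x0 ∈ H) (hy0 : y0 ∈ H) {a b : ℕ}
    (hxa : x0 ^ p ^ a = 1) (hyb : y0 ^ q ^ b = 1)
    (hxL : Subgroup.centralizer ({x0} : Set G) ≤ L) (hyL : Subgroup.centralizer ({y0} : Set G) ≤ L) :
    H ≤ L := by
  intro h hh
  obtain ⟨k, m, hm, hn⟩ := Nat.exists_eq_pow_mul_and_not_dvd (orderOf_pos h).ne' p hp.ne_one
  have hc : (p ^ k).Coprime m := Nat.Coprime.pow_left k ((Nat.Prime.coprime_iff_not_dvd hp).mpr hm)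
  obtain ⟨N, M, ⟨t, rfl⟩, ⟨s, rfl⟩, hNM⟩ := exists_part_exponents hc
  have h1 : (h ^ (m * t)) ^ p ^ k = 1 := by
    rw [← pow_mul, show m * t * p ^ k = (p ^ k * m) * t by ring, pow_mul, ← hn, pow_orderOf_eq_one,
      one_pow]
  have h2 : (h ^ (p ^ k * s)) ^ m = 1 := by
    rw [← pow_mul, show p ^ k * s * m = (p ^ k * m) * s by ring, pow_mul, ← hn, pow_orderOf_eq_one,
      one_pow]
  have h3 : h ^ (m * t + p ^ k * s) = h := by
    rw [← hn] at hNM
    have := (pow_eq_pow_iff_modEq (x := h)).mpr hNM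
    rwa [pow_one] at this
  have h4 : h ^ (p ^ k * s) ∈ L := by
    apply hxL
    rw [Subgroup.mem_centralizer_singleton_iff]
    exact commute_of_coprime_pow_mem hH (H.pow_mem hh _) hx0
      (Nat.Coprime.pow_right a ((Nat.Prime.coprime_iff_not_dvd hp).mpr hm).symm) h2 hxa
  have h5 : h ^ (m * t) ∈ L := by
    apply hyL
    rw [Subgroup.mem_centralizer_singleton_iff]
    exact commute_of_coprime_pow_mem hH (H.pow_mem hh _) hy0
      (Nat.Coprime.pow k b ((Nat.coprime_primes hp hq).mpr hpq)) h1 hyb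
  rw [← h3, pow_add]
  exact L.mul_mem h5 h4

theorem exists_isMaxNilp_ge [Finite G] {C : Subgroup G} (hC : Group.IsNilpotent C) :
    ∃ L : Subgroup G, C ≤ L ∧ IsMaxNilp L := by
  obtain ⟨L, hCL, hL⟩ := Set.Finite.exists_le_maximal
    (s := {L : Subgroup G | Group.IsNilpotent L}) (Set.toFinite _) hC
  exact ⟨L, hCL, hL.1, fun L' hL' hle => le_antisymm (hL.2 hL' hle) hle⟩

theorem IsMaxNilp.eq_of_two_primes [Finite G] (hCN : IsCNGroup G) {H L : Subgroup G}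
    (hH : IsMaxNilp H) (hL : IsMaxNilp L) {p q : ℕ} [hp : Fact p.Prime] [hq : Fact q.Prime]
    (hpq : p ≠ q) (hpL : p ∣ Nat.card L) (hqL : q ∣ Nat.card L) {y : G} (hy1 : y ≠ 1)
    (hyc : ∀ h ∈ H, h * y = y * h) (hyL : y ∈ L) : H = L := by
  obtain ⟨x0, hx0, hx01, ⟨a, hxa⟩, hx0c⟩ := exists_central_pelement hL.1 hpL
  obtain ⟨y0, hy0, hy01, ⟨b, hyb⟩, hy0c⟩ := exists_central_pelement hL.1 hqL
  have hCy := hH.centralizer_eq hCN hy1 hyc
  have hx0H : x0 ∈ H := by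
    rw [← hCy, Subgroup.mem_centralizer_singleton_iff]
    exact (hx0c y hyL).symm
  have hy0H : y0 ∈ H := by
    rw [← hCy, Subgroup.mem_centralizer_singleton_iff]
    exact (hy0c y hyL).symm
  have hle : H ≤ L := le_of_centralizers_le hH.1 hp.out hq.out hpq hx0H hy0H hxa hyb
    (hL.centralizer_eq hCN hx01 hx0c).le (hL.centralizer_eq hCN hy01 hy0c).le
  exact (hH.2 L hL.1 hle).symm

theorem IsMaxNilp.exists_sylow_le [Finite G] (hCN : IsCNGroup G) {H : Subgroup G}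
    (hH : IsMaxNilp H) {p : ℕ} [hp : Fact p.Prime] (hpH : p ∣ Nat.card H) :
    ∃ P : Sylow p G, (P : Subgroup G) ≤ H := by
  by_cases hq : ∃ q : ℕ, q.Prime ∧ q ≠ p ∧ q ∣ Nat.card H
  · obtain ⟨q, hqp, hqne, hqH⟩ := hq
    have : Fact q.Prime := ⟨hqp⟩
    obtain ⟨x, hx, hx1, ⟨a, hxa⟩, hxc⟩ := exists_central_pelement hH.1 hpH
    obtain ⟨y, hy, hy1, ⟨b, hyb⟩, hyc⟩ := exists_central_pelement hH.1 hqH
    obtain ⟨P, hP⟩ := (isPGroup_zpowers_of_pow hxa).exists_le_sylow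
    have hxP : x ∈ (P : Subgroup G) := hP (Subgroup.mem_zpowers x)
    have hPne : (P : Subgroup G) ≠ ⊥ := by
      intro h
      rw [h, Subgroup.mem_bot] at hxP
      exact hx1 hxP
    obtain ⟨u, huP, huc, hu1⟩ := Cfsg.Agent.Lib.Helper20.inf_centralizer_ne_bot (P : Subgroup G)
      (P : Subgroup G) P.2.isNilpotent le_rfl hPne Subgroup.le_normalizer
    rw [Subgroup.mem_centralizer_iff] at huc
    have huH : u ∈ H := by
      rw [← hH.centralizer_eq hCN hx1 hxc, Subgroup.mem_centralizer_singleton_iff]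
      exact (huc x hxP).symm
    refine ⟨P, fun w hw => ?_⟩
    rw [← hH.centralizer_eq hCN hy1 hyc, Subgroup.mem_centralizer_singleton_iff]
    obtain ⟨j, hj⟩ := P.2 ⟨w, hw⟩
    have hj' : w ^ p ^ j = 1 := by simpa using congrArg Subtype.val hj
    exact commute_of_coprime_pow_mem (hCN u hu1)
      (Subgroup.mem_centralizer_singleton_iff.mpr (huc w hw))
      (Subgroup.mem_centralizer_singleton_iff.mpr (hyc u huH).symm)
      (Nat.Coprime.pow j b ((Nat.coprime_primes hp.out hqp).mpr hqne.symm)) hj' hyb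
  · push Not at hq
    have hcard : Nat.card H = p ^ (Nat.card H).primeFactorsList.length :=
      Nat.eq_prime_pow_of_unique_prime_dvd Nat.card_pos.ne' (fun {d} hd hdvd => by
        by_contra hne
        exact hq d hd hne hdvd)
    obtain ⟨P, hP⟩ := (IsPGroup.of_card hcard).exists_le_sylow
    exact ⟨P, (hH.2 P P.2.isNilpotent hP).le⟩

theorem IsMaxNilp.map_conj {H : Subgroup G} (hH : IsMaxNilp H) (g : G) :
    IsMaxNilp (H.map (MulAut.conj g).toMonoidHom) := by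
  refine ⟨(Group.isNilpotent_congr ((MulAut.conj g).subgroupMap H)).mp hH.1, ?_⟩
  intro L hL hle
  have h1 : Group.IsNilpotent (L.map (MulAut.conj g⁻¹).toMonoidHom) :=
    (Group.isNilpotent_congr ((MulAut.conj g⁻¹).subgroupMap L)).mp hL
  have h2 : H ≤ L.map (MulAut.conj g⁻¹).toMonoidHom := by
    intro h hh
    refine ⟨g * h * g⁻¹, hle ⟨h, hh, by simp⟩, ?_⟩
    simp [mul_assoc]
  have h3 := hH.2 _ h1 h2
  rw [← h3, Subgroup.map_map]
  ext z
  simp only [Subgroup.mem_map, MonoidHom.coe_comp, MulEquiv.coe_toMonoidHom, Function.comp_apply,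
    MulAut.conj_apply]
  constructor
  · intro hz
    exact ⟨z, hz, by group⟩
  · rintro ⟨x, hx, rfl⟩
    have : g * (g⁻¹ * x * g⁻¹⁻¹) * g⁻¹ = x := by group
    rw [this]
    exact hx

theorem mem_sylow_of_commute {p : ℕ} [Fact p.Prime] [Finite G] (P : Sylow p G) {x : G} {k : ℕ}
    (hx : x ^ p ^ k = 1) (hc : ∀ w ∈ (P : Subgroup G), w * x = x * w) : x ∈ (P : Subgroup G) := by
  have h1 := (isPGroup_zpowers_of_pow hx).inf_normalizer_sylow P
  have h2 : x ∈ Subgroup.zpowers x ⊓ Subgroup.normalizer ((P : Subgroup G) : Set G) := by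
    refine ⟨Subgroup.mem_zpowers x, Subgroup.centralizer_le_normalizer _ ?_⟩
    rw [Subgroup.mem_centralizer_iff]
    exact hc
  have h3 : x ∈ Subgroup.zpowers x ⊓ (P : Subgroup G) := h1 ▸ h2
  exact h3.2

/-- maximal nilpotent subgroups of a CN-group are conjugate or of coprime orders -/
theorem IsMaxNilp.conj_or_coprime [Finite G] (hCN : IsCNGroup G) {H₁ H₂ : Subgroup G}
    (h1 : IsMaxNilp H₁) (h2 : IsMaxNilp H₂) :
    (∃ g : G, H₂ = H₁.map (MulAut.conj g).toMonoidHom) ∨ (Nat.card H₁).Coprime (Nat.card H₂) := by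
  by_cases hco : (Nat.card H₁).Coprime (Nat.card H₂)
  · exact Or.inr hco
  left
  obtain ⟨p, hp, hp1, hp2⟩ := Nat.Prime.not_coprime_iff_dvd.mp hco
  have : Fact p.Prime := ⟨hp⟩
  obtain ⟨P1, hP1⟩ := h1.exists_sylow_le hCN hp1
  obtain ⟨P2, hP2⟩ := h2.exists_sylow_le hCN hp2
  obtain ⟨g, hg⟩ := MulAction.exists_smul_eq G P1 P2
  refine ⟨g, ?_⟩
  set H' := H₁.map (MulAut.conj g).toMonoidHom with hH'
  have h1' : IsMaxNilp H' := h1.map_conj g
  have hP2' : (P2 : Subgroup G) ≤ H' := by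
    rw [← hg, Sylow.smul_def, Sylow.pointwise_smul_def]
    exact Subgroup.map_mono hP1
  have hcard' : p ∣ Nat.card H' := by
    rw [hH', Subgroup.card_map_of_injective (MulAut.conj g).injective]
    exact hp1
  obtain ⟨x1, hx1, hx11, ⟨a1, hxa1⟩, hx1c⟩ := exists_central_pelement h1'.1 hcard'
  obtain ⟨x2, hx2, hx21, ⟨a2, hxa2⟩, hx2c⟩ := exists_central_pelement h2.1 hp2
  have hx1P : x1 ∈ (P2 : Subgroup G) := mem_sylow_of_commute P2 hxa1 (fun w hw => hx1c w (hP2' hw))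
  have hx2P : x2 ∈ (P2 : Subgroup G) := mem_sylow_of_commute P2 hxa2 (fun w hw => hx2c w (hP2 hw))
  by_cases hq2 : ∃ q : ℕ, q.Prime ∧ q ≠ p ∧ q ∣ Nat.card H₂
  · obtain ⟨q, hqp, hqne, hq⟩ := hq2
    have : Fact q.Prime := ⟨hqp⟩
    exact (h1'.eq_of_two_primes hCN h2 hqne.symm hp2 hq hx11 hx1c (hP2 hx1P)).symm
  by_cases hq1 : ∃ q : ℕ, q.Prime ∧ q ≠ p ∧ q ∣ Nat.card H'
  · obtain ⟨q, hqp, hqne, hq⟩ := hq1
    have : Fact q.Prime := ⟨hqp⟩
    exact h2.eq_of_two_primes hCN h1' hqne.symm hcard' hq hx21 hx2c (hP2' hx2P)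
  push Not at hq1 hq2
  have hc1 : Nat.card H' = p ^ (Nat.card H').primeFactorsList.length :=
    Nat.eq_prime_pow_of_unique_prime_dvd Nat.card_pos.ne' (fun {d} hd hdvd => by
      by_contra hne
      exact hq1 d hd hne hdvd)
  have hc2 : Nat.card H₂ = p ^ (Nat.card H₂).primeFactorsList.length :=
    Nat.eq_prime_pow_of_unique_prime_dvd Nat.card_pos.ne' (fun {d} hd hdvd => by
      by_contra hne
      exact hq2 d hd hne hdvd)
  have e1 : H' = P2 := P2.is_maximal' (IsPGroup.of_card hc1) hP2'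
  have e2 : H₂ = P2 := P2.is_maximal' (IsPGroup.of_card hc2) hP2
  rw [e1, e2]

theorem exists_prime_order_pow [Finite G] {w : G} (hw : w ≠ 1) :
    ∃ (p : ℕ) (n : ℕ), p.Prime ∧ orderOf (w ^ n) = p := by
  have h1 : orderOf w ≠ 1 := fun h => hw (orderOf_eq_one_iff.mp h)
  refine ⟨(orderOf w).minFac, orderOf w / (orderOf w).minFac, Nat.minFac_prime h1, ?_⟩
  exact orderOf_pow_orderOf_div (orderOf_pos w).ne' (Nat.minFac_dvd _)

theorem IsMaxNilp.eq_of_centralizer_le [Finite G] (hCN : IsCNGroup G) {H L : Subgroup G}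
    (hH : IsMaxNilp H) (hL : IsMaxNilp L) {p q : ℕ} [hp : Fact p.Prime] [hq : Fact q.Prime]
    (hpq : p ≠ q) {x : G} (hx : x ∈ H) (hxo : orderOf x = p) (hqH : q ∣ Nat.card H)
    (hxL : Subgroup.centralizer ({x} : Set G) ≤ L) : H = L := by
  obtain ⟨y, hy, hy1, ⟨b, hyb⟩, hyc⟩ := exists_central_pelement hH.1 hqH
  have hyL : y ∈ L := hxL (Subgroup.mem_centralizer_singleton_iff.mpr (hyc x hx).symm)
  have hxL' : x ∈ L := hxL (Subgroup.mem_centralizer_singleton_iff.mpr rfl)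
  have hpL : p ∣ Nat.card L := by
    rw [← hxo]
    have := orderOf_dvd_natCard (⟨x, hxL'⟩ : L)
    rwa [Subgroup.orderOf_mk] at this
  have hqL : q ∣ Nat.card L := by
    have h1 : orderOf y ∣ Nat.card L := by
      have := orderOf_dvd_natCard (⟨y, hyL⟩ : L)
      rwa [Subgroup.orderOf_mk] at this
    obtain ⟨j, -, hj⟩ := (Nat.dvd_prime_pow hq.out).mp (orderOf_dvd_of_pow_eq_one hyb)
    rcases Nat.eq_zero_or_pos j with rfl | hjpos
    · rw [pow_zero, orderOf_eq_one_iff] at hj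
      exact absurd hj hy1
    · exact ((dvd_pow_self q hjpos.ne').trans hj.symm.dvd).trans h1
  exact hH.eq_of_two_primes hCN hL hpq hpL hqL hy1 hyc hyL

end Cfsg.Agent.Lib.Helper4
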