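import Mathlib
import Cfsg.Prelude
import Cfsg.Agent.Lib.Helper1.Carter
import Cfsg.Agent.Lib.Helper4.SysNorm2

set_option autoImplicit false
open Pointwise

/-! System normalizers and Carter subgroups. -/

namespace Cfsg.Agent.Lib.Helper4

open Cfsg Cfsg.Agent.Lib.Helper1

universe u

theorem carterConj (n : ℕ) : CarterConj.{u} n := by
  intro H _ _ _ _ C D hC hD
  exact (carter_all _ H rfl).2 C D hC hD

theorem dvd_of_dvd_mul_pow {a b r k : ℕ} (h : a ∣ b * r ^ k) (hc : a.Coprime r) : a ∣ b :=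
  (hc.pow_right k).dvd_of_dvd_mul_right h

/-- If the complement system `K` reduces into the Carter subgroup `C`, then the system normalizer
of `K` lies in `C`. -/
theorem systemNormalizer_le_carter : ∀ (n : ℕ) (G : Type u) [Group G] [Finite G]
    [Group.IsSolvable G], Nat.card G = n → ∀ (C : Subgroup G) (K : Nat.Primes → Subgroup G),
    IsCarter C → IsComplementSystem K → (∀ p : Nat.Primes, ∃ k, (K p).relIndex C = (p : ℕ) ^ k) →
    systemNormalizer K ≤ C := by
  intro n
  induction n using Nat.strong_induction_on with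
  | _ n ih =>
  intro G _ _ _ hn C K hC hK hR g hg
  rcases subsingleton_or_nontrivial G with hs | hnt
  · rw [Subsingleton.elim g 1]; exact C.one_mem
  obtain ⟨r, N, hr, hNn, hNne, -, hNr⟩ := exists_normal_elementary_abelian (G := G)
  haveI : Fact r.Prime := ⟨hr⟩
  have hNp : IsPGroup r N := isPGroup_of_pow_eq_one hNr
  -- quotient step
  have hlt : Nat.card (G ⧸ N) < n := by
    rw [← hn, ← N.card_mul_index, ← Subgroup.index_eq_card]
    have h1 : 1 < Nat.card N := by
      rw [Subgroup.one_lt_card_iff_ne_bot]; exact hNne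
    have h2 : 0 < N.index := Nat.pos_of_ne_zero Subgroup.index_ne_zero_of_finite
    nlinarith
  have hq := ih _ hlt (G ⧸ N) rfl (C.map (QuotientGroup.mk' N))
    (fun p => (K p).map (QuotientGroup.mk' N)) (hC.map_mk' (carterConj _) N) (compl_map hK N)
    (by
      intro p
      obtain ⟨k, hk⟩ := hR p
      have h1 : ((K p).map (QuotientGroup.mk' N)).relIndex (C.map (QuotientGroup.mk' N)) ∣
          (K p).relIndex C := by
        rw [← Subgroup.relIndex_comap, Subgroup.comap_map_eq, QuotientGroup.ker_mk']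
        exact Subgroup.relIndex_dvd_of_le_left C le_sup_left
      rw [hk] at h1
      obtain ⟨j, -, hj⟩ := (Nat.dvd_prime_pow p.2).mp h1
      exact ⟨j, hj⟩)
  set H : Subgroup G := C ⊔ N with hH
  have hgH : g ∈ H := by
    have h1 : QuotientGroup.mk' N g ∈ C.map (QuotientGroup.mk' N) := by
      apply hq
      rw [systemNormalizer_map hK N]
      exact Subgroup.mem_map_of_mem _ hg
    have h2 : g ∈ (C.map (QuotientGroup.mk' N)).comap (QuotientGroup.mk' N) := h1
    rwa [Subgroup.comap_map_eq, QuotientGroup.ker_mk'] at h2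
  -- the prime r
  set rr : Nat.Primes := ⟨r, hr⟩ with hrr
  set Kr : Subgroup G := K rr with hKr
  have hKrc : (Nat.card Kr).Coprime r :=
    ((Nat.Prime.coprime_iff_not_dvd hr).mpr (compl_not_dvd_card hK rr)).symm
  obtain ⟨k, hk⟩ := hR rr
  change Kr.relIndex C = r ^ k at hk
  obtain ⟨a, ha⟩ := IsPGroup.iff_card.mp hNp
  -- numeric fact
  have hstar : Nat.card H ∣ Nat.card (Kr ⊓ C : Subgroup G) * r ^ (k + a) := by
    have h1 := card_mul_card_eq_of_le_normalizer C N (by rw [Subgroup.normalizer_eq_top]; exact le_top)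
    have h2 : Nat.card C = Nat.card (Kr ⊓ C : Subgroup G) * r ^ k := by
      rw [card_eq_mul_relIndex (inf_le_right : Kr ⊓ C ≤ C), Subgroup.inf_relIndex_right, hk]
    rw [pow_add, ← mul_assoc, ← h2, ← ha, h1]
    exact Dvd.intro _ rfl
  have hi : Kr ⊓ H ≤ C := by
    have hle : Kr ⊓ C ≤ Kr ⊓ H := inf_le_inf_left _ le_sup_left
    have hc : (Nat.card (Kr ⊓ H : Subgroup G)).Coprime r :=
      Nat.Coprime.coprime_dvd_left (Subgroup.card_dvd_of_le inf_le_left) hKrc
    have hd : Nat.card (Kr ⊓ H : Subgroup G) ∣ Nat.card (Kr ⊓ C : Subgroup G) :=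
      dvd_of_dvd_mul_pow ((Subgroup.card_dvd_of_le inf_le_right).trans hstar) hc
    have := Subgroup.eq_of_le_of_card_ge hle (Nat.le_of_dvd Nat.card_pos hd)
    rw [← this]
    exact inf_le_right
  -- work in H
  have hCH : C ≤ H := le_sup_left
  have hNH : N ≤ H := le_sup_right
  have hC' : IsCarter (C.subgroupOf H) := hC.subgroupOf hCH
  have hN' : IsPGroup r (N.subgroupOf H) := hNp.comap_subtype
  haveI : Group.IsNilpotent (↥H ⧸ N.subgroupOf H) := by
    apply nilpotent_quotient_subgroupOf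
    have : H.map (QuotientGroup.mk' N) = C.map (QuotientGroup.mk' N) := by
      rw [hH, Subgroup.map_sup]
      have : N.map (QuotientGroup.mk' N) = ⊥ := by
        rw [Subgroup.map_eq_bot_iff, QuotientGroup.ker_mk']
      rw [this, sup_bot_eq]
    rw [this]
    exact nilpotent_map _ hC.1
  have hCN : C.subgroupOf H ⊔ N.subgroupOf H = ⊤ := by
    rw [← Subgroup.subgroupOf_sup hCH hNH, ← hH, Subgroup.subgroupOf_self]
  obtain ⟨Q', hQ'c, ⟨k', hk'⟩, hCeq⟩ := hC'.eq_normalizer_hall (N.subgroupOf H) hN' hCN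
  have hKQ : Kr.subgroupOf H = Q' := by
    have hle : Kr.subgroupOf H ≤ Q' := by
      apply le_of_coprime_relIndex (M := Subgroup.normalizer (Q' : Set H)) Subgroup.le_normalizer
      · rw [← hCeq]
        intro x hx
        exact hi ⟨hx, x.2⟩
      · exact le_rfl
      · have h1 : Q'.relIndex (Subgroup.normalizer (Q' : Set H)) ∣ r ^ k' :=
          hk' ▸ Subgroup.relIndex_dvd_index_of_le Subgroup.le_normalizer
        have h2 : (Nat.card (Kr.subgroupOf H)).Coprime r := by
          have h3 : Nat.card (Kr.subgroupOf H) = Nat.card (Kr ⊓ H : Subgroup G) := by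
            rw [← Subgroup.inf_subgroupOf_right, card_subgroupOf_of_le inf_le_right]
          rw [h3]
          exact Nat.Coprime.coprime_dvd_left (Subgroup.card_dvd_of_le inf_le_left) hKrc
        exact Nat.Coprime.coprime_dvd_right h1 (h2.pow_right k')
    apply Subgroup.eq_of_le_of_card_ge hle
    have h3 : Nat.card (Kr.subgroupOf H) = Nat.card (Kr ⊓ H : Subgroup G) := by
      rw [← Subgroup.inf_subgroupOf_right, card_subgroupOf_of_le inf_le_right]
    have h4 : Nat.card Q' ∣ Nat.card (Kr ⊓ C : Subgroup G) :=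
      dvd_of_dvd_mul_pow ((Subgroup.card_subgroup_dvd_card Q').trans hstar) hQ'c
    have h5 : Nat.card (Kr ⊓ C : Subgroup G) ≤ Nat.card (Kr ⊓ H : Subgroup G) :=
      Subgroup.card_le_of_le (inf_le_inf_left _ le_sup_left)
    rw [h3]
    exact (Nat.le_of_dvd Nat.card_pos h4).trans h5
  have hgn : g ∈ Subgroup.normalizer (Kr : Set G) := by
    have := (Subgroup.mem_iInf.mp hg) rr
    exact this
  have hg' : (⟨g, hgH⟩ : H) ∈ Subgroup.normalizer ((Kr.subgroupOf H : Subgroup H) : Set H) := by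
    rw [Subgroup.mem_normalizer_iff]
    intro h
    rw [Subgroup.mem_subgroupOf, Subgroup.mem_subgroupOf]
    exact Subgroup.mem_normalizer_iff.mp hgn h
  rw [hKQ, ← hCeq] at hg'
  exact hg'

/-- Every subgroup admits a complement system reducing into it. -/
theorem exists_complementSystem_reducing {G : Type u} [Group G] [Finite G] [Group.IsSolvable G]
    (C : Subgroup G) : ∃ K : Nat.Primes → Subgroup G, IsComplementSystem K ∧
      ∀ p : Nat.Primes, ∃ k, (K p).relIndex C = (p : ℕ) ^ k := by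
  have key : ∀ p : Nat.Primes, ∃ Kp : Subgroup G, (∃ k, Kp.index = (p : ℕ) ^ k) ∧
      ¬ (p : ℕ) ∣ Nat.card Kp ∧ ∃ k, Kp.relIndex C = (p : ℕ) ^ k := by
    intro p
    haveI : Fact (p : ℕ).Prime := ⟨p.2⟩
    obtain ⟨Q₀, hQ₀, k, hk⟩ := exists_hall_p' (G := C) (p : ℕ)
    obtain ⟨e, m, hm, hG⟩ := Nat.exists_eq_pow_mul_and_not_dvd (n := Nat.card G)
      Nat.card_pos.ne' (p : ℕ) p.2.ne_one
    have hcop : m.Coprime (p : ℕ) := ((Nat.Prime.coprime_iff_not_dvd p.2).mpr hm).symm
    obtain ⟨Kp, hKp, hle⟩ := hall_dominance m ((p : ℕ) ^ e) (by rw [hG, mul_comm])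
      (hcop.pow_right e) (Q₀.map C.subtype) (by rw [card_map_subtype]; exact hQ₀.pow_right e)
    refine ⟨Kp, ⟨e, ?_⟩, ?_, ?_⟩
    · have h1 := Kp.card_mul_index
      rw [hKp, hG, mul_comm] at h1
      have hm0 : 0 < m := Nat.pos_of_ne_zero (by rintro rfl; simp at hm)
      exact Nat.eq_of_mul_eq_mul_right hm0 h1
    · rw [hKp]; exact hm
    · have h1 : Kp.relIndex C ∣ (Q₀.map C.subtype).relIndex C := Subgroup.relIndex_dvd_of_le_left C hle
      have h2 : (Q₀.map C.subtype).relIndex C = Q₀.index := by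
        rw [Subgroup.relIndex, ← Subgroup.comap_subtype,
          Subgroup.comap_map_eq_self_of_injective C.subtype_injective]
      rw [h2, hk] at h1
      obtain ⟨j, -, hj⟩ := (Nat.dvd_prime_pow p.2).mp h1
      exact ⟨j, hj⟩
  choose K h1 h2 h3 using key
  exact ⟨K, isComplementSystem_of_index_pow K h1 h2, h3⟩

theorem eq_of_mul_pow_eq_mul_pow {u v r i j : ℕ} (h : u * r ^ i = v * r ^ j) (hu : u.Coprime r)
    (hv : v.Coprime r) : u = v :=
  Nat.dvd_antisymm (dvd_of_dvd_mul_pow (h ▸ Dvd.intro _ rfl) hu)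
    (dvd_of_dvd_mul_pow (h.symm ▸ Dvd.intro _ rfl) hv)

/-- In a nilpotent-by-nilpotent group, a Carter subgroup containing a system normalizer
coincides with it. -/
theorem carter_le_systemNormalizer {G : Type u} [Group G] [Finite G] [Group.IsSolvable G]
    (F : Subgroup G) [hFn : F.Normal] (hF : Group.IsNilpotent F) (hGF : Group.IsNilpotent (G ⧸ F))
    (K : Nat.Primes → Subgroup G) (hK : IsComplementSystem K) (C : Subgroup G) (hC : IsCarter C)
    (hDC : systemNormalizer K ≤ C) : C ≤ systemNormalizer K := by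
  set D := systemNormalizer K with hD
  have hDF : D ⊔ F = ⊤ := by
    have h1 : D.map (QuotientGroup.mk' F) = ⊤ := by
      rw [hD, ← systemNormalizer_map hK F, systemNormalizer, iInf_eq_top]
      intro p
      have : ((K p).map (QuotientGroup.mk' F)).Normal :=
        normal_of_hall_of_nilpotent (compl_coprime (compl_map hK F) p)
      exact Subgroup.normalizer_eq_top _
    have h2 := congrArg (Subgroup.comap (QuotientGroup.mk' F)) h1
    rwa [Subgroup.comap_map_eq, QuotientGroup.ker_mk', Subgroup.comap_top] at h2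
  suffices h : C ⊓ F ≤ D by
    intro x hx
    have hx' : x ∈ D ⊔ F := hDF ▸ Subgroup.mem_top x
    obtain ⟨d, hd, f, hf, rfl⟩ := Subgroup.mem_sup_of_normal_right.mp hx'
    have hfC : f ∈ C := by
      have := C.mul_mem (C.inv_mem (hDC hd)) hx
      simpa using this
    exact D.mul_mem hd (h ⟨hfC, hf⟩)
  intro y hy
  rw [hD, systemNormalizer, Subgroup.mem_iInf]
  intro rr
  set r : ℕ := (rr : ℕ) with hr
  have hrp : r.Prime := rr.2
  haveI : Fact r.Prime := ⟨hrp⟩
  set Kr : Subgroup G := K rr with hKr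
  have hKrc : (Nat.card Kr).Coprime r :=
    ((Nat.Prime.coprime_iff_not_dvd hrp).mpr (compl_not_dvd_card hK rr)).symm
  have hKri : Kr.index = r ^ (Nat.card G).factorization r := hK rr
  have hDn : D ≤ Subgroup.normalizer (Kr : Set G) := iInf_le _ rr
  have hpow : ∀ X : Subgroup G, Kr.relIndex X ∣ Kr.index →
      ∃ c, Nat.card X = Nat.card (Kr ⊓ X : Subgroup G) * r ^ c := by
    intro X hX
    rw [hKri] at hX
    obtain ⟨c, -, hc⟩ := (Nat.dvd_prime_pow hrp).mp hX
    refine ⟨c, ?_⟩
    rw [card_eq_mul_relIndex (inf_le_right : Kr ⊓ X ≤ X), Subgroup.inf_relIndex_right, hc]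
  have hcopX : ∀ X : Subgroup G, X ≤ Kr → (Nat.card X).Coprime r := fun X hX =>
    Nat.Coprime.coprime_dvd_left (Subgroup.card_dvd_of_le hX) hKrc
  set A : Subgroup G := Kr ⊓ D with hA
  set B : Subgroup G := Kr ⊓ F with hB
  have hBF : B ≤ F := inf_le_right
  have hBrel : B.relIndex F ∣ r ^ (Nat.card G).factorization r := by
    rw [hB, Subgroup.inf_relIndex_right, ← hKri]
    exact relIndex_dvd_index_of_normal_right Kr F
  have hFB : F ≤ Subgroup.normalizer (B : Set G) := by
    rw [← Subgroup.normal_subgroupOf_iff_le_normalizer hBF]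
    apply normal_of_hall_of_nilpotent
    rw [card_subgroupOf_of_le hBF]
    exact Nat.Coprime.coprime_dvd_right hBrel ((hcopX B inf_le_left).pow_right _)
  have hDB : D ≤ Subgroup.normalizer (B : Set G) := by
    intro d hd
    have hd' := hDn hd
    rw [Subgroup.mem_normalizer_iff]
    intro h
    constructor
    · rintro ⟨h1, h2⟩
      exact ⟨(Subgroup.mem_normalizer_iff.mp hd' h).mp h1, hFn.conj_mem h h2 d⟩
    · rintro ⟨h1, h2⟩
      refine ⟨(Subgroup.mem_normalizer_iff.mp hd' h).mpr h1, ?_⟩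
      have := hFn.conj_mem _ h2 d⁻¹
      simpa [mul_assoc] using this
  have hAB : A ⊔ B = Kr := by
    apply Subgroup.eq_of_le_of_card_ge (sup_le inf_le_left inf_le_left)
    have e1 := card_mul_card_eq_of_le_normalizer D F (by rw [Subgroup.normalizer_eq_top]; exact le_top)
    rw [hDF, Subgroup.card_top] at e1
    have e2 := card_mul_card_eq_of_le_normalizer A B (inf_le_right.trans hDB)
    have e3 : A ⊓ B = Kr ⊓ (D ⊓ F) := by
      rw [hA, hB]
      ext x
      simp only [Subgroup.mem_inf]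
      tauto
    rw [e3] at e2
    obtain ⟨c, hc⟩ := hpow D (relIndex_dvd_index_of_le_normalizer D Kr hDn)
    obtain ⟨d, hd⟩ := hpow F (relIndex_dvd_index_of_normal_right Kr F)
    obtain ⟨b, hb⟩ := hpow (D ⊓ F) (relIndex_dvd_index_of_le_normalizer (D ⊓ F) Kr (inf_le_left.trans hDn))
    have hG : Nat.card G = Nat.card Kr * r ^ (Nat.card G).factorization r := by
      rw [← hKri, Subgroup.card_mul_index]
    set e := (Nat.card G).factorization r
    have hpos : 0 < Nat.card (Kr ⊓ (D ⊓ F) : Subgroup G) := Nat.card_pos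
    have key : Nat.card (A ⊔ B : Subgroup G) * r ^ (c + d) = Nat.card Kr * r ^ (e + b) := by
      apply Nat.eq_of_mul_eq_mul_right hpos
      calc Nat.card (A ⊔ B : Subgroup G) * r ^ (c + d) * Nat.card (Kr ⊓ (D ⊓ F) : Subgroup G)
          = (Nat.card (A ⊔ B : Subgroup G) * Nat.card (Kr ⊓ (D ⊓ F) : Subgroup G)) * r ^ (c + d) := by ring
        _ = (Nat.card A * Nat.card B) * r ^ (c + d) := by rw [e2]
        _ = (Nat.card A * r ^ c) * (Nat.card B * r ^ d) := by ring
        _ = Nat.card D * Nat.card F := by rw [← hc, ← hd]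
        _ = Nat.card G * Nat.card (D ⊓ F : Subgroup G) := e1
        _ = (Nat.card Kr * r ^ e) * (Nat.card (Kr ⊓ (D ⊓ F) : Subgroup G) * r ^ b) := by rw [← hG, ← hb]
        _ = Nat.card Kr * r ^ (e + b) * Nat.card (Kr ⊓ (D ⊓ F) : Subgroup G) := by ring
    exact (eq_of_mul_pow_eq_mul_pow key (hcopX _ (sup_le inf_le_left inf_le_left)) hKrc).ge
  -- Hall r'-subgroup of C
  haveI := hC.1
  obtain ⟨Q₀, hQ₀, k, hk⟩ := exists_hall_p' (G := C) r
  have hQ₀n : Q₀.Normal := normal_of_hall_of_nilpotent (by rw [hk]; exact hQ₀.pow_right k)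
  have hAC : A ≤ C := inf_le_right.trans hDC
  have hAQ : A.subgroupOf C ≤ Q₀ := by
    apply le_normal_of_coprime_index
    rw [card_subgroupOf_of_le hAC, hk]
    exact (hcopX A inf_le_left).pow_right k
  have hWB : (Q₀.map C.subtype) ⊓ F ≤ B := by
    apply le_of_coprime_relIndex hBF inf_le_right hFB
    have h1 : (Nat.card ((Q₀.map C.subtype) ⊓ F : Subgroup G)).Coprime r := by
      apply Nat.Coprime.coprime_dvd_left (Subgroup.card_dvd_of_le inf_le_left)
      rw [card_map_subtype]; exact hQ₀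
    exact Nat.Coprime.coprime_dvd_right hBrel (h1.pow_right _)
  apply mem_normalizer_of_conj_mem
  have hle : A ⊔ B ≤ MulAut.conj y⁻¹ • Kr := by
    apply sup_le
    · intro u hu
      rw [Cfsg.Agent.Lib.Helper1.mem_conj_smul, inv_inv]
      have huC : u ∈ C := hAC hu
      have hu' : (⟨u, huC⟩ : C) ∈ Q₀ := hAQ hu
      have hw' : (⟨y, hy.1⟩ : C) * ⟨u, huC⟩ * (⟨y, hy.1⟩ : C)⁻¹ * (⟨u, huC⟩ : C)⁻¹ ∈ Q₀ :=
        Q₀.mul_mem (hQ₀n.conj_mem _ hu' _) (Q₀.inv_mem hu')
      have hw : y * u * y⁻¹ * u⁻¹ ∈ (Q₀.map C.subtype) ⊓ F := by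
        constructor
        · exact ⟨_, hw', rfl⟩
        · have h1 := hFn.conj_mem _ (F.inv_mem hy.2) u
          have h2 := F.mul_mem hy.2 h1
          simpa [mul_assoc] using h2
      have h3 := Kr.mul_mem (hWB hw).1 hu.1
      simpa [mul_assoc] using h3
    · intro u hu
      rw [Cfsg.Agent.Lib.Helper1.mem_conj_smul, inv_inv]
      exact ((Subgroup.mem_normalizer_iff.mp (hFB hy.2) u).mp hu).1
  rw [hAB] at hle
  intro u hu
  have := hle hu
  rwa [Cfsg.Agent.Lib.Helper1.mem_conj_smul, inv_inv] at this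

end Cfsg.Agent.Lib.Helper4
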