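import Mathlib
import Cfsg.Agent.Lib.Helper4.Huppert3
import Cfsg.Agent.Lib.Helper4.NilpFusion
import Cfsg.Agent.S0532
import Cfsg.Agent.S0527

set_option autoImplicit false
open Cfsg

namespace Cfsg.Agent.Lib.Helper4

universe u

theorem eq_of_lt_of_le_of_card {G : Type*} [Group G] [Finite G] {L T X : Subgroup G} {p : ℕ}
    (hp : p.Prime) (h1 : L < T) (h2 : T ≤ X) (hc : Nat.card X = p * Nat.card L) : T = X := by
  obtain ⟨c, hc1⟩ := Subgroup.card_dvd_of_le h1.le
  obtain ⟨d, hd⟩ := Subgroup.card_dvd_of_le h2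
  have hL : 0 < Nat.card L := Nat.card_pos
  have hpcd : p = c * d := by
    have : Nat.card L * p = Nat.card L * (c * d) := by rw [mul_comm, ← hc, hd, hc1]; ring
    exact Nat.eq_of_mul_eq_mul_left hL this
  have hc1' : c ≠ 1 := by
    rintro rfl
    exact h1.ne (Subgroup.eq_of_le_of_card_ge h1.le (by rw [hc1]; simp))
  have hd1 : d = 1 := by
    rcases (Nat.dvd_prime hp).mp ⟨d, hpcd⟩ with h | h
    · exact absurd h hc1'
    · rw [h] at hpcd
      have : p * 1 = p * d := by rw [mul_one]; exact hpcd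
      exact (Nat.eq_of_mul_eq_mul_left hp.pos this).symm
  apply Subgroup.eq_of_le_of_card_ge h2
  rw [hd, hd1]; simp

theorem normalizer_inf_le_normalizer_inf {G : Type*} [Group G] (A B : Subgroup G) :
    Subgroup.normalizer (A : Set G) ⊓ Subgroup.normalizer (B : Set G) ≤
      Subgroup.normalizer ((A ⊓ B : Subgroup G) : Set G) := by
  intro g hg
  obtain ⟨h1, h2⟩ := Subgroup.mem_inf.mp hg
  rw [Subgroup.mem_normalizer_iff] at h1 h2 ⊢
  intro n
  rw [Subgroup.mem_inf, Subgroup.mem_inf]
  exact and_congr (h1 n) (h2 n)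

theorem exists_complement_in_coatom {G : Type*} [Group G] [Finite G] (p : ℕ) [Fact p.Prime]
    (P : Sylow p G) (hPn : (P : Subgroup G).Normal) (M : Subgroup G) (hsup : M ⊔ P = ⊤) :
    ∃ K : Subgroup G, K ≤ M ∧ Nat.card K = (P : Subgroup G).index ∧ ((P : Subgroup G) ⊓ M) ⊔ K = M := by
  have hidx : ((P : Subgroup G).subgroupOf M).index = (P : Subgroup G).index := by
    change (P : Subgroup G).relIndex M = _
    rw [← Subgroup.relIndex_sup_right, hsup, Subgroup.relIndex_top_right]
  have hcop : (Nat.card ((P : Subgroup G).subgroupOf M)).Coprime ((P : Subgroup G).subgroupOf M).index := by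
    rw [hidx]
    have h1 : Nat.card ((P : Subgroup G).subgroupOf M) ∣ Nat.card (P : Subgroup G) := by
      rw [← Subgroup.inf_subgroupOf_right, card_subgroupOf_of_le inf_le_right]
      exact Subgroup.card_dvd_of_le inf_le_left
    exact Nat.Coprime.coprime_dvd_left h1 P.card_coprime_index
  obtain ⟨K', hK'⟩ := Subgroup.exists_right_complement'_of_coprime hcop
  refine ⟨K'.map M.subtype, Subgroup.map_subtype_le K', ?_, ?_⟩
  · rw [card_map_subtype, ← hK'.symm.index_eq_card, hidx]
  · have h1 := congrArg (Subgroup.map M.subtype) hK'.sup_eq_top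
    rw [Subgroup.map_sup, Subgroup.subgroupOf_map_subtype, ← MonoidHom.range_eq_map,
      Subgroup.range_subtype] at h1
    exact h1

theorem index_eq_of_clt {G : Type*} [Group G] [Finite G]
    (hclt : ∀ (X : Subgroup G) (d : ℕ), d ∣ Nat.card X → ∃ L : Subgroup G, L ≤ X ∧ Nat.card L = d)
    (p : ℕ) [Fact p.Prime] (P : Sylow p G) (hPn : (P : Subgroup G).Normal) (M : Subgroup G)
    (hM : IsCoatom M) (hPM : ¬ (P : Subgroup G) ≤ M) : M.index = p := by
  have hp : p.Prime := Fact.out
  have hsup : M ⊔ P = ⊤ := sup_eq_top_of_coatom hM hPM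
  obtain ⟨K, hKM, hKc, hKsup⟩ := exists_complement_in_coatom p P hPn M hsup
  set P0 : Subgroup G := (P : Subgroup G) ⊓ M with hP0
  have hKcop : (Nat.card K).Coprime p := by
    rw [hKc]
    exact ((Nat.Prime.coprime_iff_not_dvd hp).mpr P.not_dvd_index).symm
  have hKW : ∀ W : Subgroup G, W ≤ P → K ⊓ W = ⊥ := by
    intro W hW
    apply Disjoint.eq_bot
    apply Subgroup.disjoint_of_coprime_natCard
    obtain ⟨k, hk⟩ := (P.2.to_le hW).exists_card_eq
    rw [hk]
    exact Nat.Coprime.pow_right _ hKcop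
  have hPN : Subgroup.normalizer ((P : Subgroup G) : Set G) = ⊤ := Subgroup.normalizer_eq_top_iff.mpr hPn
  -- P0 normal
  have hP0n : P0.Normal := by
    rw [← Subgroup.normalizer_eq_top_iff]
    have hlt : P0 < P := lt_of_le_of_ne inf_le_left (fun h => hPM (inf_eq_left.mp h))
    obtain ⟨y, hyP, hyP0, hyN⟩ := exists_mem_normalizer_not_mem P.2 hlt
    apply hM.2
    have hle : M ≤ Subgroup.normalizer (P0 : Set G) := by
      refine le_trans ?_ (normalizer_inf_le_normalizer_inf _ _)
      rw [hPN, top_inf_eq]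
      exact Subgroup.le_normalizer
    apply lt_of_le_of_ne hle
    intro h
    rw [← h] at hyN
    exact hyP0 ⟨hyP, hyN⟩
  have hP0N : Subgroup.normalizer (P0 : Set G) = ⊤ := Subgroup.normalizer_eq_top_iff.mpr hP0n
  -- minimal U
  obtain ⟨U, hU⟩ := (Set.toFinite {U : Subgroup G | U ≤ P ∧ K ≤ Subgroup.normalizer (U : Set G) ∧
    ¬ U ≤ M}).exists_minimal ⟨P, le_rfl, by rw [hPN]; exact le_top, hPM⟩
  obtain ⟨⟨hUP, hKU, hUM⟩, hUmin⟩ := hU
  have hUp : IsPGroup p U := P.2.to_le hUP
  have hK0 : 0 < Nat.card K := Nat.card_pos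
  obtain ⟨m, hm⟩ : p ∣ Nat.card U := by
    rcases hUp.card_eq_or_dvd with h | h
    · exfalso
      apply hUM
      rw [Subgroup.card_eq_one.mp h]
      exact bot_le
    · exact h
  have hm0 : 0 < m := by
    rcases Nat.eq_zero_or_pos m with h0 | h0
    · rw [h0, mul_zero] at hm
      exact absurd hm Nat.card_pos.ne'
    · exact h0
  set X : Subgroup G := K ⊔ U with hX
  have hXc : Nat.card X = p * (m * Nat.card K) := by
    have h1 := card_mul_card_eq_of_le_normalizer K U hKU
    rw [hKW U hUP, Subgroup.card_bot, mul_one, hm] at h1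
    rw [hX, ← h1]; ring
  obtain ⟨L, hLX, hLc⟩ := hclt X (m * Nat.card K) ⟨p, by rw [hXc]; ring⟩
  have hXc' : Nat.card X = p * Nat.card L := by rw [hXc, hLc]
  have hXU : X ≤ Subgroup.normalizer (U : Set G) := sup_le hKU Subgroup.le_normalizer
  have hUL : ¬ U ≤ L := by
    intro h
    have h1 := Subgroup.card_dvd_of_le h
    rw [hm, hLc, mul_comm p m] at h1
    have h2 : p ∣ Nat.card K := Nat.dvd_of_mul_dvd_mul_left hm0 h1
    have h3 := Nat.Coprime.eq_one_of_dvd hKcop.symm h2
    exact hp.one_lt.ne' h3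
  have hLU : L ⊔ U = X := by
    apply eq_of_lt_of_le_of_card hp _ (sup_le hLX le_sup_right) hXc'
    apply lt_of_le_of_ne le_sup_left
    intro h
    apply hUL
    rw [h]
    exact le_sup_right
  set U1 : Subgroup G := L ⊓ U with hU1
  have hU1c : Nat.card U1 = m := by
    have h1 := card_mul_card_eq_of_le_normalizer L U (hLX.trans hXU)
    rw [hLU, hXc, hLc, hm] at h1
    have h2 : (p * (m * Nat.card K)) * m = (p * (m * Nat.card K)) * Nat.card U1 := by
      rw [← h1]; ring
    have hp0 := hp.pos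
    exact (Nat.eq_of_mul_eq_mul_left (by positivity) h2).symm
  have hU1lt : U1 < U := lt_of_le_of_ne inf_le_right (fun h => hUL (inf_eq_right.mp h))
  obtain ⟨y, hyU, hyU1, hyN⟩ := exists_mem_normalizer_not_mem hUp hU1lt
  have hXU1 : X ≤ Subgroup.normalizer (U1 : Set G) := by
    have hLN : L ≤ Subgroup.normalizer (U1 : Set G) :=
      le_trans (le_inf Subgroup.le_normalizer (hLX.trans hXU)) (normalizer_inf_le_normalizer_inf _ _)
    have h1 : Subgroup.normalizer (U1 : Set G) ⊓ X = X := by
      apply eq_of_lt_of_le_of_card hp _ inf_le_right hXc'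
      apply lt_of_le_of_ne (le_inf hLN hLX)
      intro h
      apply hyU1
      refine ⟨?_, hyU⟩
      rw [h]
      exact ⟨hyN, (le_sup_right : U ≤ X) hyU⟩
    exact inf_eq_right.mp h1
  have hU1M : U1 ≤ M := by
    by_contra hcon
    have h1 := hUmin ⟨hU1lt.le.trans hUP, le_sup_left.trans hXU1, hcon⟩ hU1lt.le
    exact hU1lt.not_ge h1
  have hU1P0 : U1 ≤ U ⊓ P0 := le_inf hU1lt.le (le_inf (hU1lt.le.trans hUP) hU1M)
  set W : Subgroup G := U ⊔ P0 with hW
  have hWP : W ≤ P := sup_le hUP inf_le_left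
  have e1 := card_mul_card_eq_of_le_normalizer U P0 (by rw [hP0N]; exact le_top)
  have hKWn : K ≤ Subgroup.normalizer (W : Set G) :=
    le_trans (le_inf hKU (by rw [hP0N]; exact le_top)) (normalizer_inf_le_normalizer_sup _ _)
  have e2 := card_mul_card_eq_of_le_normalizer K W hKWn
  have hKWtop : K ⊔ W = ⊤ := by
    apply hM.2
    have hle : M ≤ K ⊔ W := by
      rw [← hKsup]
      exact sup_le (le_sup_right.trans le_sup_right) le_sup_left
    apply lt_of_le_of_ne hle
    intro h
    apply hUM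
    rw [h]
    exact le_sup_left.trans le_sup_right
  have e3 := card_mul_card_eq_of_le_normalizer K P0 (by rw [hP0N]; exact le_top)
  rw [hKWtop, hKW W hWP, Subgroup.card_bot, mul_one, Subgroup.card_top] at e2
  rw [sup_comm, hKsup, hKW P0 inf_le_left, Subgroup.card_bot, mul_one] at e3
  obtain ⟨e, he⟩ := Subgroup.card_dvd_of_le hU1P0
  rw [hU1c] at he
  have e4 := M.card_mul_index
  have hP00 : 0 < Nat.card P0 := Nat.card_pos
  have e5 : M.index * e = p := by
    have : (Nat.card K * Nat.card P0 * m) * (M.index * e) = (Nat.card K * Nat.card P0 * m) * p := by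
      calc (Nat.card K * Nat.card P0 * m) * (M.index * e)
          = (Nat.card M * M.index) * (m * e) := by rw [← e3]; ring
        _ = Nat.card K * (Nat.card W * Nat.card (U ⊓ P0 : Subgroup G)) := by rw [e4, ← e2, he]; ring
        _ = Nat.card K * (Nat.card U * Nat.card P0) := by rw [← e1]
        _ = _ := by rw [hm]; ring
    exact Nat.eq_of_mul_eq_mul_left (by positivity) this
  rcases (Nat.dvd_prime hp).mp ⟨e, e5.symm⟩ with h | h
  · exact absurd (Subgroup.index_eq_one.mp h) hM.1
  · exact h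

theorem clt_aux (n : ℕ) : ∀ {G : Type u} [Group G] [Finite G], Nat.card G = n →
    (∀ H : Subgroup G, HasSubgroupOfEveryOrder H) → IsSupersolvable G := by
  induction n using Nat.strong_induction_on with
  | _ n ih =>
  intro G _ _ hn h
  by_cases htriv : Subsingleton G
  · exact supersolvable_of_subsingleton
  have : Nontrivial G := not_subsingleton_iff_nontrivial.mp htriv
  have hG1 : 1 < Nat.card G := Finite.one_lt_card
  obtain ⟨p, hp, hpd, hmax⟩ := exists_max_prime_dvd _ hG1
  have : Fact p.Prime := ⟨hp⟩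
  obtain ⟨P⟩ : Nonempty (Sylow p G) := inferInstance
  have hPn : (P : Subgroup G).Normal := S0532.result h p hpd hmax P
  have hclt : ∀ (X : Subgroup G) (d : ℕ), d ∣ Nat.card X →
      ∃ L : Subgroup G, L ≤ X ∧ Nat.card L = d := by
    intro X d hd
    obtain ⟨L, hL⟩ := h X d hd
    exact ⟨L.map X.subtype, Subgroup.map_subtype_le L, by rw [card_map_subtype, hL]⟩
  -- the quotient by P is supersolvable
  have hq : IsSupersolvable (G ⧸ (P : Subgroup G)) := by
    obtain ⟨K, hK⟩ := Subgroup.exists_right_complement'_of_coprime P.card_coprime_index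
    have hK' : ∀ H : Subgroup K, HasSubgroupOfEveryOrder H := fun H =>
      S0532.hasSub_of_mulEquiv (Subgroup.equivMapOfInjective H K.subtype K.subtype_injective).symm
        (h (H.map K.subtype))
    have hlt : Nat.card K < n := by
      rw [← hn, ← hK.card_mul_card]
      have h1 : 1 < Nat.card (P : Subgroup G) := by
        have h2 : Nat.card (P : Subgroup G) ≠ 1 := fun h3 =>
          P.ne_bot_of_dvd_card hpd (Subgroup.card_eq_one.mp h3)
        have h3 : 0 < Nat.card (P : Subgroup G) := Nat.card_pos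
        omega
      have h4 : 0 < Nat.card K := Nat.card_pos
      nlinarith
    have hKs := ih _ hlt rfl hK'
    refine supersolvable_of_surjective ((QuotientGroup.mk' (P : Subgroup G)).comp K.subtype) ?_ hKs
    intro x
    obtain ⟨g, rfl⟩ := QuotientGroup.mk'_surjective _ x
    have hg : g ∈ (P : Subgroup G) ⊔ K := hK.sup_eq_top ▸ Subgroup.mem_top g
    rw [Subgroup.mem_sup_of_normal_left] at hg
    obtain ⟨u, hu, k, hk, rfl⟩ := hg
    refine ⟨⟨k, hk⟩, ?_⟩
    simp only [MonoidHom.comp_apply, Subgroup.subtype_apply, map_mul]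
    have hu1 : QuotientGroup.mk' (P : Subgroup G) u = 1 := (QuotientGroup.eq_one_iff u).mpr hu
    rw [hu1, one_mul]
  apply huppert_aux _ rfl
  intro M hM
  by_cases hPM : (P : Subgroup G) ≤ M
  · have h1 := S0527.result hq _ (isCoatom_map_mk' (P : Subgroup G) M hPM hM)
    rw [Subgroup.index_map_eq _ (QuotientGroup.mk'_surjective _)
      (by rw [QuotientGroup.ker_mk']; exact hPM)] at h1
    exact h1
  · rw [index_eq_of_clt hclt p P hPn M hM hPM]
    exact hp

end Cfsg.Agent.Lib.Helper4
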