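import Mathlib
import Cfsg.Agent.Lib.Helper4.SysNorm2
import Cfsg.Agent.Lib.Helper4.MinNormal
import Cfsg.Agent.Lib.Helper20.Fitting

set_option autoImplicit false
open Cfsg
open scoped commutatorElement

namespace Cfsg.Agent.Lib.Helper4

universe u

theorem le_of_normal_pgroup_of_coprime_index {X : Type*} [Group X] [Finite X] {r : ℕ}
    (E H : Subgroup X) [E.Normal] (hE : IsPGroup r E) (hr : r.Prime) (hH : H.index.Coprime r) : E ≤ H := by
  rw [← Subgroup.relIndex_eq_one]
  have h1 : H.relIndex E ∣ H.index := relIndex_dvd_index_of_normal_right H E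
  have h2 : H.relIndex E ∣ Nat.card E := Subgroup.relIndex_dvd_card H E
  have : Fact r.Prime := ⟨hr⟩
  obtain ⟨m, hm⟩ := hE.exists_card_eq
  rw [hm] at h2
  exact Nat.eq_one_of_dvd_coprimes (Nat.Coprime.pow_right m hH) h1 h2

theorem centralizer_compl_inf_eq_bot {G : Type u} [Group G] [Finite G] [Group.IsSolvable G]
    (B : Subgroup G) (hB : IsMinNormal B) (hnc : ¬ B ≤ Subgroup.center G) (p : ℕ) [Fact p.Prime]
    (hBp : IsPGroup p B) (H : Subgroup G) (hH : ∃ k, H.index = p ^ k) :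
    B ⊓ Subgroup.centralizer (H : Set G) = ⊥ := by
  have hp : p.Prime := Fact.out
  have hBn := hB.1
  set X : Subgroup G := Subgroup.centralizer (B : Set G) with hX
  have hXn : X.Normal := inferInstance
  have hXtop : X ≠ ⊤ := by
    intro h
    apply hnc
    intro b hb
    rw [Subgroup.mem_center_iff]
    intro g
    have hg : g ∈ X := h ▸ Subgroup.mem_top g
    rw [hX, Subgroup.mem_centralizer_iff] at hg
    exact (hg b hb).symm
  have hs := QuotientGroup.mk'_surjective X
  have hnt : (⊤ : Subgroup (G ⧸ X)) ≠ ⊥ := by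
    intro h
    apply hXtop
    rw [eq_top_iff]
    intro g _
    have h1 : QuotientGroup.mk' X g ∈ (⊤ : Subgroup (G ⧸ X)) := Subgroup.mem_top _
    rw [h, Subgroup.mem_bot] at h1
    exact (QuotientGroup.eq_one_iff g).mp h1
  obtain ⟨E', hE', -⟩ := exists_minNormal_le (⊤ : Subgroup (G ⧸ X)) inferInstance hnt
  obtain ⟨r, hr, hel⟩ := hE'.elemAb
  have hE'n := hE'.1
  have hE'r : IsPGroup r E' := elemAb_isPGroup hel
  set E : Subgroup G := E'.comap (QuotientGroup.mk' X) with hE
  have hEn : E.Normal := inferInstance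
  have hEX : ¬ E ≤ X := by
    intro h
    apply hE'.2.1
    rw [eq_bot_iff]
    intro y hy
    obtain ⟨g, rfl⟩ := hs y
    have hg : g ∈ E := hy
    rw [Subgroup.mem_bot]
    exact (QuotientGroup.eq_one_iff g).mpr (h hg)
  have hCE : B ⊓ Subgroup.centralizer (E : Set G) = ⊥ := by
    rcases hB.2.2 (B ⊓ Subgroup.centralizer (E : Set G)) inferInstance inf_le_left with h | h
    · exact h
    · exfalso
      apply hEX
      have h1 : B ≤ Subgroup.centralizer (E : Set G) := inf_eq_left.mp h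
      exact Subgroup.le_centralizer_iff.mp h1
  have key : ∀ H' : Subgroup G, H'.index.Coprime r → ∀ c ∈ B, (∀ h ∈ H', h * c = c * h) →
      c ∈ Subgroup.centralizer (E : Set G) := by
    intro H' hH' c hc hcomm
    have h1 : E' ≤ H'.map (QuotientGroup.mk' X) :=
      le_of_normal_pgroup_of_coprime_index E' _ hE'r hr
        (Nat.Coprime.coprime_dvd_left (Subgroup.index_map_dvd _ hs) hH')
    rw [Subgroup.mem_centralizer_iff]
    intro e he
    obtain ⟨h, hh, hhe⟩ := h1 (show QuotientGroup.mk' X e ∈ E' from he)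
    have h2 : h⁻¹ * e ∈ X := by
      rw [← QuotientGroup.eq_one_iff]
      have : ((h⁻¹ * e : G) : G ⧸ X) = (QuotientGroup.mk' X h)⁻¹ * QuotientGroup.mk' X e := by simp
      rw [this, hhe]; simp
    rw [hX, Subgroup.mem_centralizer_iff] at h2
    have h3 := h2 c hc
    have h4 := hcomm h hh
    calc e * c = h * ((h⁻¹ * e) * c) := by group
      _ = h * (c * (h⁻¹ * e)) := by rw [h3]
      _ = (h * c) * (h⁻¹ * e) := by group
      _ = (c * h) * (h⁻¹ * e) := by rw [h4]
      _ = c * e := by group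
  have hrp : r ≠ p := by
    rintro rfl
    obtain ⟨P⟩ : Nonempty (Sylow r G) := inferInstance
    have hBP : B ≤ P := le_of_normal_pgroup_of_coprime_index B _ hBp hr
      ((Nat.Prime.coprime_iff_not_dvd hr).mpr P.not_dvd_index).symm
    obtain ⟨c, hcB, hcP, hc1⟩ := Cfsg.Agent.Lib.Helper20.inf_centralizer_ne_bot (P : Subgroup G) B
      P.2.isNilpotent hBP hB.2.1 (by rw [Subgroup.normalizer_eq_top_iff.mpr hBn]; exact le_top)
    have h1 := key P ((Nat.Prime.coprime_iff_not_dvd hr).mpr P.not_dvd_index).symm c hcB (by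
      intro h hh
      rw [Subgroup.mem_centralizer_iff] at hcP
      exact hcP h hh)
    have h2 : c ∈ B ⊓ Subgroup.centralizer (E : Set G) := ⟨hcB, h1⟩
    rw [hCE, Subgroup.mem_bot] at h2
    exact hc1 h2
  rw [eq_bot_iff, ← hCE]
  rintro c ⟨hcB, hcH⟩
  obtain ⟨k, hk⟩ := hH
  refine ⟨hcB, key H ?_ c hcB ?_⟩
  · rw [hk]
    exact Nat.Coprime.pow_left _ ((Nat.coprime_primes hp hr).mpr (Ne.symm hrp))
  · intro h hh
    have hcH' : c ∈ Subgroup.centralizer (H : Set G) := hcH
    rw [Subgroup.mem_centralizer_iff] at hcH'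
    exact hcH' h hh

theorem sysnorm_minNormal {G : Type u} [Group G] [Finite G] [Group.IsSolvable G]
    (K : Nat.Primes → Subgroup G) (hK : IsComplementSystem K) (B : Subgroup G) (hB : IsMinNormal B) :
    (B ≤ Subgroup.center G → B ≤ systemNormalizer K) ∧
      (¬ B ≤ Subgroup.center G → B ⊓ systemNormalizer K = ⊥) := by
  constructor
  · intro h
    exact le_iInf (fun p => h.trans (Subgroup.center_le_normalizer _))
  · intro h
    obtain ⟨p, hp, hel⟩ := hB.elemAb
    have : Fact p.Prime := ⟨hp⟩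
    have hBp : IsPGroup p B := elemAb_isPGroup hel
    have hBn := hB.1
    rw [eq_bot_iff, ← centralizer_compl_inf_eq_bot B hB h p hBp (K ⟨p, hp⟩) ⟨_, hK ⟨p, hp⟩⟩]
    rintro x ⟨hxB, hxD⟩
    refine ⟨hxB, ?_⟩
    have hxN : x ∈ Subgroup.normalizer ((K ⟨p, hp⟩ : Subgroup G) : Set G) :=
      (Subgroup.mem_iInf.mp hxD) ⟨p, hp⟩
    have hdisj : K ⟨p, hp⟩ ⊓ B = ⊥ := by
      apply Disjoint.eq_bot
      apply Subgroup.disjoint_of_coprime_natCard
      obtain ⟨m, hm⟩ := hBp.exists_card_eq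
      rw [hm]
      apply Nat.Coprime.pow_right
      exact ((Nat.Prime.coprime_iff_not_dvd hp).mpr (compl_not_dvd_card hK ⟨p, hp⟩)).symm
    show x ∈ Subgroup.centralizer ((K ⟨p, hp⟩ : Subgroup G) : Set G)
    rw [Subgroup.mem_centralizer_iff]
    intro k hk
    have h1 : x * k * x⁻¹ * k⁻¹ ∈ K ⟨p, hp⟩ ⊓ B := by
      constructor
      · exact Subgroup.mul_mem _ ((Subgroup.mem_normalizer_iff.mp hxN k).mp hk) (Subgroup.inv_mem _ hk)
      · have h2 : x * k * x⁻¹ * k⁻¹ = x * (k * x⁻¹ * k⁻¹) := by group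
        rw [h2]
        exact B.mul_mem hxB (hBn.conj_mem _ (B.inv_mem hxB) k)
    rw [hdisj, Subgroup.mem_bot] at h1
    have h3 : x * k = (x * k * x⁻¹ * k⁻¹) * (k * x) := by group
    rw [h1, one_mul] at h3
    exact h3.symm

end Cfsg.Agent.Lib.Helper4
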