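import Mathlib
import Cfsg.Prelude.Def_PLocal
import Cfsg.Agent.Lib.Helper22.Comm2

set_option autoImplicit false

namespace Cfsg.Agent.Lib.Helper4.RegK

open Cfsg.Agent.Lib.Helper22
open scoped commutatorElement

/-- Regularity of a `p`-group at one fixed level `k`. -/
def RegK (p k : ℕ) (G : Type*) [Group G] : Prop :=
  IsPGroup p G ∧ ∀ a b : G,
    ∃ c ∈ Cfsg.powerClosure p k ⁅Subgroup.closure ({a, b} : Set G), Subgroup.closure ({a, b} : Set G)⁆,
      (a * b) ^ (p ^ k) = a ^ (p ^ k) * b ^ (p ^ k) * c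

theorem map_powerClosure {G G' : Type*} [Group G] [Group G'] (f : G →* G') (p n : ℕ) (H : Subgroup G) :
    (Cfsg.powerClosure p n H).map f = Cfsg.powerClosure p n (H.map f) := by
  unfold Cfsg.powerClosure
  rw [MonoidHom.map_closure]
  congr 1
  ext y
  constructor
  · rintro ⟨z, ⟨x, hx, rfl⟩, rfl⟩
    exact ⟨f x, Subgroup.mem_map_of_mem _ hx, by simp⟩
  · rintro ⟨x, ⟨x', hx', rfl⟩, rfl⟩
    exact ⟨x' ^ p ^ n, ⟨x', hx', rfl⟩, by simp⟩

theorem powerClosure_mono {G : Type*} [Group G] (p n : ℕ) {H K : Subgroup G} (h : H ≤ K) :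
    Cfsg.powerClosure p n H ≤ Cfsg.powerClosure p n K := by
  unfold Cfsg.powerClosure
  apply Subgroup.closure_mono
  rintro y ⟨x, hx, rfl⟩
  exact ⟨x, h hx, rfl⟩

theorem pow_mem_powerClosure {G : Type*} [Group G] (p n : ℕ) {H : Subgroup G} {x : G} (h : x ∈ H) :
    x ^ p ^ n ∈ Cfsg.powerClosure p n H :=
  Subgroup.subset_closure ⟨x, h, rfl⟩

theorem powerClosure_normal {G : Type*} [Group G] (p n : ℕ) (N : Subgroup G) [hN : N.Normal] :
    (Cfsg.powerClosure p n N).Normal := by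
  refine ⟨fun x hx g => ?_⟩
  have h1 : (Cfsg.powerClosure p n N).map (MulAut.conj g).toMonoidHom ≤ Cfsg.powerClosure p n N := by
    rw [map_powerClosure]
    apply powerClosure_mono
    rintro _ ⟨y, hy, rfl⟩
    exact hN.conj_mem y hy g
  exact h1 ⟨x, hx, rfl⟩

theorem RegK.subgroup {G : Type*} [Group G] {p k : ℕ} (hG : RegK p k G) (H : Subgroup G) :
    RegK p k H := by
  refine ⟨hG.1.to_subgroup H, fun a b => ?_⟩
  obtain ⟨c, hc, hab⟩ := hG.2 (a : G) (b : G)
  have h1 : (Subgroup.closure ({a, b} : Set H)).map H.subtype = Subgroup.closure ({(a : G), (b : G)} : Set G) := by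
    rw [MonoidHom.map_closure, Set.image_pair]; rfl
  rw [← h1, ← Subgroup.map_commutator, ← map_powerClosure] at hc
  obtain ⟨c', hc', rfl⟩ := hc
  refine ⟨c', hc', ?_⟩
  apply Subtype.ext
  simpa using hab

theorem RegK.quotient {G : Type*} [Group G] {p k : ℕ} (hG : RegK p k G) (N : Subgroup G) [N.Normal] :
    RegK p k (G ⧸ N) := by
  refine ⟨hG.1.to_quotient N, ?_⟩
  intro a b
  obtain ⟨a, rfl⟩ := QuotientGroup.mk_surjective a
  obtain ⟨b, rfl⟩ := QuotientGroup.mk_surjective b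
  obtain ⟨c, hc, h⟩ := hG.2 a b
  refine ⟨QuotientGroup.mk' N c, ?_, ?_⟩
  · have := Subgroup.mem_map_of_mem (QuotientGroup.mk' N) hc
    rw [map_powerClosure, Subgroup.map_commutator, MonoidHom.map_closure, Set.image_pair] at this
    exact this
  · have := congrArg (QuotientGroup.mk' N) h
    simpa using this

theorem pow_eq_iff_aux (p : ℕ) [hp : Fact p.Prime] (k : ℕ) : ∀ (n : ℕ) (G : Type*) [Group G] [Finite G],
    Nat.card G = n → RegK p k G →
    ∀ a b : G, a ^ p ^ k = b ^ p ^ k ↔ (a * b⁻¹) ^ p ^ k = 1 := by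
  intro n
  induction n using Nat.strong_induction_on with
  | _ n ih =>
  intro G _ _ hn hG a b
  set q := p ^ k with hq
  have IH : ∀ M : Subgroup G, M ≠ ⊤ → ∀ x ∈ M, ∀ y ∈ M, (x ^ q = y ^ q ↔ (x * y⁻¹) ^ q = 1) := by
    intro M hM x hx y hy
    have hcard : Nat.card M < n := by
      rw [← hn]
      by_contra hge
      exact hM (Subgroup.eq_top_of_card_eq M (le_antisymm (Subgroup.card_le_card_group M) (not_lt.mp hge)))
    have := ih (Nat.card M) hcard M rfl (hG.subgroup M) ⟨x, hx⟩ ⟨y, hy⟩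
    simpa [Subtype.ext_iff] using this
  by_cases htop : Subgroup.closure ({a, b} : Set G) = ⊤
  swap
  · exact IH _ htop a (Subgroup.subset_closure (by simp)) b (Subgroup.subset_closure (by simp))
  by_cases hcomm : commutator G = ⊥
  · have hc : Commute a b⁻¹ := by
      have := (commutator_eq_bot_iff G).mp hcomm
      exact this.is_comm.comm a b⁻¹
    rw [hc.mul_pow, inv_pow, mul_inv_eq_one]
  have hnil : Group.IsNilpotent G := hG.1.isNilpotent
  have F1 : ∀ x : G, Subgroup.zpowers x ⊔ commutator G ≠ ⊤ := fun x h =>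
    hcomm (commutator_eq_bot_of_sup_commutator_eq_top (Subgroup.zpowers x) inferInstance h)
  have hG'top : commutator G ≠ ⊤ := by
    intro h
    apply F1 1
    rw [h]; simp
  have key : ∀ u v : G, Subgroup.closure ({u, v} : Set G) = ⊤ → ⁅u, v⁆ ^ q = 1 →
      ∀ x y : G, (x * y) ^ q = x ^ q * y ^ q := by
    intro u v huv hc x y
    let Ω : Subgroup G :=
      { carrier := {z | z ∈ commutator G ∧ z ^ q = 1}
        one_mem' := ⟨one_mem _, one_pow _⟩
        mul_mem' := by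
          rintro z w ⟨hz, hz1⟩ ⟨hw, hw1⟩
          refine ⟨mul_mem hz hw, ?_⟩
          have := (IH (commutator G) hG'top z hz w⁻¹ (inv_mem hw)).mp (by rw [hz1, inv_pow, hw1, inv_one])
          simpa using this
        inv_mem' := by
          rintro z ⟨hz, hz1⟩
          exact ⟨inv_mem hz, by rw [inv_pow, hz1, inv_one]⟩ }
    have hΩn : Ω.Normal := by
      refine ⟨fun z hz g => ⟨?_, ?_⟩⟩
      · exact (inferInstance : (commutator G).Normal).conj_mem z hz.1 g
      · rw [conj_pow, hz.2]; simp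
    have hle : commutator G ≤ Ω := by
      apply commutator_le_of_closure_pair Ω u v huv
      refine ⟨?_, hc⟩
      rw [commutator_def]
      exact Subgroup.commutator_mem_commutator (Subgroup.mem_top u) (Subgroup.mem_top v)
    obtain ⟨c, hcmem, hxy⟩ := hG.2 x y
    have hbot : Cfsg.powerClosure p k ⁅Subgroup.closure ({x, y} : Set G), Subgroup.closure ({x, y} : Set G)⁆ = ⊥ := by
      unfold Cfsg.powerClosure
      rw [Subgroup.closure_eq_bot_iff]
      rintro z ⟨w, hw, rfl⟩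
      have hw' : w ∈ commutator G := by
        rw [commutator_def]
        exact Subgroup.commutator_mono le_top le_top hw
      exact (hle hw').2
    rw [hbot, Subgroup.mem_bot] at hcmem
    rw [hxy, hcmem, mul_one]
  have memM : ∀ x y : G, y * x * y⁻¹ ∈ Subgroup.zpowers x ⊔ commutator G := by
    intro x y
    have h1 : y * x * y⁻¹ = ⁅y, x⁆ * x := by rw [commutatorElement_def]; group
    rw [h1]
    apply mul_mem
    · apply Subgroup.mem_sup_right
      rw [commutator_def]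
      exact Subgroup.commutator_mem_commutator (Subgroup.mem_top y) (Subgroup.mem_top x)
    · exact Subgroup.mem_sup_left (Subgroup.mem_zpowers x)
  constructor
  · intro hab
    have h1 : (b * a * b⁻¹) ^ q = a ^ q := by
      rw [conj_pow, hab]; group
    have h2 := (IH _ (F1 a) a (Subgroup.mem_sup_left (Subgroup.mem_zpowers a)) _ (memM a b)).mp h1.symm
    have h3 : a * (b * a * b⁻¹)⁻¹ = ⁅a, b⁆ := by rw [commutatorElement_def]; group
    rw [h3] at h2
    rw [key a b htop h2, inv_pow, hab, mul_inv_cancel]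
  · intro hab
    set c := a * b⁻¹ with hc
    have htop' : Subgroup.closure ({c, b} : Set G) = ⊤ := by
      rw [eq_top_iff, ← htop, Subgroup.closure_le]
      rintro x (rfl | rfl)
      · have : x = c * b := by rw [hc]; group
        rw [this]
        exact mul_mem (Subgroup.subset_closure (by simp)) (Subgroup.subset_closure (by simp))
      · exact Subgroup.subset_closure (by simp)
    have h1 : (b * c * b⁻¹) ^ q = c ^ q := by
      rw [conj_pow, hab]; group
    have h2 := (IH _ (F1 c) c (Subgroup.mem_sup_left (Subgroup.mem_zpowers c)) _ (memM c b)).mp h1.symm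
    have h3 : c * (b * c * b⁻¹)⁻¹ = ⁅c, b⁆ := by rw [commutatorElement_def]; group
    rw [h3] at h2
    have h4 : a = c * b := by rw [hc]; group
    rw [h4, key c b htop' h2, hab, one_mul]

theorem RegK.pow_eq_iff {G : Type*} [Group G] [Finite G] {p k : ℕ} [Fact p.Prime] (hG : RegK p k G)
    (a b : G) : a ^ p ^ k = b ^ p ^ k ↔ (a * b⁻¹) ^ p ^ k = 1 :=
  pow_eq_iff_aux p k (Nat.card G) G rfl hG a b

theorem RegK.commute_iff {G : Type*} [Group G] [Finite G] {p k : ℕ} [Fact p.Prime] (hG : RegK p k G)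
    (a b : G) : a ^ p ^ k * b = b * a ^ p ^ k ↔ (a⁻¹ * b⁻¹ * a * b) ^ p ^ k = 1 := by
  have h1 := hG.pow_eq_iff (b⁻¹ * a * b⁻¹⁻¹) a
  rw [conj_pow] at h1
  have h2 : (b⁻¹ * a * b⁻¹⁻¹ * a⁻¹) ^ p ^ k = 1 ↔ (a⁻¹ * b⁻¹ * a * b) ^ p ^ k = 1 := by
    have : a⁻¹ * b⁻¹ * a * b = a⁻¹ * (b⁻¹ * a * b⁻¹⁻¹ * a⁻¹) * a⁻¹⁻¹ := by group
    rw [this, conj_pow]
    constructor
    · intro h; rw [h]; group
    · intro h
      have h3 : (b⁻¹ * a * b⁻¹⁻¹ * a⁻¹) ^ p ^ k = a * (a⁻¹ * (b⁻¹ * a * b⁻¹⁻¹ * a⁻¹) ^ p ^ k * a⁻¹⁻¹) * a⁻¹ := by group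
      rw [h3, h]; group
  rw [← h2, ← h1]
  constructor
  · intro h
    calc b⁻¹ * a ^ p ^ k * b⁻¹⁻¹ = b⁻¹ * (a ^ p ^ k * b) := by group
      _ = b⁻¹ * (b * a ^ p ^ k) := by rw [h]
      _ = a ^ p ^ k := by group
  · intro h
    calc a ^ p ^ k * b = b * (b⁻¹ * a ^ p ^ k * b⁻¹⁻¹) := by group
      _ = b * a ^ p ^ k := by rw [h]

/-- If the `p^k`-th powers of elements of `H` are closed under products, they fill `powerClosure`. -/
theorem exists_pow_of_mem_powerClosure {G : Type*} [Group G] (p k : ℕ) (H : Subgroup G)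
    (hH : ∀ u ∈ H, ∀ v ∈ H, ∃ w ∈ H, u ^ p ^ k * v ^ p ^ k = w ^ p ^ k) :
    ∀ c ∈ Cfsg.powerClosure p k H, ∃ w ∈ H, c = w ^ p ^ k := by
  intro c hc
  unfold Cfsg.powerClosure at hc
  induction hc using Subgroup.closure_induction with
  | mem x hx => exact hx
  | one => exact ⟨1, one_mem _, by simp⟩
  | mul x y _ _ hx hy =>
    obtain ⟨u, hu, rfl⟩ := hx
    obtain ⟨v, hv, rfl⟩ := hy
    exact hH u hu v hv
  | inv x _ hx =>
    obtain ⟨u, hu, rfl⟩ := hx
    exact ⟨u⁻¹, inv_mem hu, by simp⟩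

theorem pow_mul_pow_aux (p : ℕ) [hp : Fact p.Prime] (k : ℕ) : ∀ (n : ℕ) (G : Type*) [Group G] [Finite G],
    Nat.card G = n → RegK p k G →
    ∀ a b : G, ∃ z : G, a ^ p ^ k * b ^ p ^ k = z ^ p ^ k := by
  intro n
  induction n using Nat.strong_induction_on with
  | _ n ih =>
  intro G _ _ hn hG a b
  set q := p ^ k with hq
  have IH : ∀ M : Subgroup G, M ≠ ⊤ → ∀ x ∈ M, ∀ y ∈ M, ∃ z ∈ M, x ^ q * y ^ q = z ^ q := by
    intro M hM x hx y hy
    have hcard : Nat.card M < n := by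
      rw [← hn]
      by_contra hge
      exact hM (Subgroup.eq_top_of_card_eq M (le_antisymm (Subgroup.card_le_card_group M) (not_lt.mp hge)))
    obtain ⟨z, hz⟩ := ih (Nat.card M) hcard M rfl (hG.subgroup M) ⟨x, hx⟩ ⟨y, hy⟩
    refine ⟨z, z.2, ?_⟩
    simpa [Subtype.ext_iff] using hz
  by_cases htop : Subgroup.closure ({a, b} : Set G) = ⊤
  swap
  · obtain ⟨z, _, hz⟩ := IH _ htop a (Subgroup.subset_closure (by simp)) b (Subgroup.subset_closure (by simp))
    exact ⟨z, hz⟩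
  by_cases hcomm : commutator G = ⊥
  · have hc : Commute a b := by
      have := (commutator_eq_bot_iff G).mp hcomm
      exact this.is_comm.comm a b
    exact ⟨a * b, (hc.mul_pow _).symm⟩
  have hnil : Group.IsNilpotent G := hG.1.isNilpotent
  have F1 : Subgroup.zpowers (a * b) ⊔ commutator G ≠ ⊤ := fun h =>
    hcomm (commutator_eq_bot_of_sup_commutator_eq_top (Subgroup.zpowers (a * b)) inferInstance h)
  obtain ⟨c, hc, hab⟩ := hG.2 a b
  rw [htop, ← commutator_def] at hc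
  have hc' : c ∈ Cfsg.powerClosure p k (Subgroup.zpowers (a * b) ⊔ commutator G) :=
    powerClosure_mono p k le_sup_right hc
  obtain ⟨w, hw, rfl⟩ := exists_pow_of_mem_powerClosure p k _ (IH _ F1) c hc'
  obtain ⟨z, _, hz⟩ := IH _ F1 (a * b) (Subgroup.mem_sup_left (Subgroup.mem_zpowers _)) w⁻¹ (inv_mem hw)
  refine ⟨z, ?_⟩
  rw [← hq] at hab
  rw [← hz, hab, inv_pow, mul_inv_cancel_right]

theorem RegK.pow_mul_pow {G : Type*} [Group G] [Finite G] {p k : ℕ} [Fact p.Prime] (hG : RegK p k G)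
    (H : Subgroup G) : ∀ u ∈ H, ∀ v ∈ H, ∃ w ∈ H, u ^ p ^ k * v ^ p ^ k = w ^ p ^ k := by
  intro u hu v hv
  obtain ⟨z, hz⟩ := pow_mul_pow_aux p k (Nat.card H) H rfl (hG.subgroup H) ⟨u, hu⟩ ⟨v, hv⟩
  refine ⟨z, z.2, ?_⟩
  simpa [Subtype.ext_iff] using hz

theorem RegK.exists_pow {G : Type*} [Group G] [Finite G] {p k : ℕ} [Fact p.Prime] (hG : RegK p k G)
    (H : Subgroup G) : ∀ c ∈ Cfsg.powerClosure p k H, ∃ w ∈ H, c = w ^ p ^ k :=
  exists_pow_of_mem_powerClosure p k H (hG.pow_mul_pow H)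

theorem RegK.comm_top_le {G : Type*} [Group G] [Finite G] {p k : ℕ} [Fact p.Prime] (hG : RegK p k G) :
    ⁅Cfsg.powerClosure p k (⊤ : Subgroup G), (⊤ : Subgroup G)⁆ ≤ Cfsg.powerClosure p k (commutator G) := by
  haveI hN : (Cfsg.powerClosure p k (commutator G)).Normal := powerClosure_normal p k _
  rw [comm_le_iff]
  refine (Subgroup.closure_le _).mpr ?_
  rintro _ ⟨x, _, rfl⟩
  change QuotientGroup.mk' _ (x ^ p ^ k) ∈ Subgroup.centralizer _
  rw [Subgroup.mem_centralizer_iff]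
  rintro _ ⟨y, _, rfl⟩
  have h1 := (hG.quotient (Cfsg.powerClosure p k (commutator G))).commute_iff
    (QuotientGroup.mk' _ x) (QuotientGroup.mk' _ y)
  have h2 : ((QuotientGroup.mk' (Cfsg.powerClosure p k (commutator G)) x)⁻¹ * (QuotientGroup.mk' _ y)⁻¹ *
      (QuotientGroup.mk' _ x) * (QuotientGroup.mk' _ y)) ^ p ^ k = 1 := by
    rw [← map_inv, ← map_inv, ← map_mul, ← map_mul, ← map_mul, ← map_pow, ← MonoidHom.mem_ker,
      QuotientGroup.ker_mk']
    apply pow_mem_powerClosure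
    have : x⁻¹ * y⁻¹ * x * y = ⁅x⁻¹, y⁻¹⁆ := by rw [commutatorElement_def]; group
    rw [this, commutator_def]
    exact Subgroup.commutator_mem_commutator (Subgroup.mem_top _) (Subgroup.mem_top _)
  have h3 := h1.mpr h2
  rw [map_pow]
  exact h3.symm

theorem RegK.comm_le {G : Type*} [Group G] [Finite G] {p k : ℕ} [Fact p.Prime] (hG : RegK p k G)
    (H : Subgroup G) :
    ⁅Cfsg.powerClosure p k H, Cfsg.powerClosure p k H⁆ ≤ Cfsg.powerClosure p k ⁅H, H⁆ := by
  have h1 := (hG.subgroup H).comm_top_le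
  have h2 := Subgroup.map_mono (f := H.subtype) h1
  rw [Subgroup.map_commutator, map_powerClosure, map_powerClosure, Subgroup.map_subtype_commutator,
    ← MonoidHom.range_eq_map, Subgroup.range_subtype] at h2
  refine le_trans (Subgroup.commutator_mono le_rfl ?_) h2
  unfold Cfsg.powerClosure
  rw [Subgroup.closure_le]
  rintro _ ⟨x, hx, rfl⟩
  exact pow_mem hx _

end Cfsg.Agent.Lib.Helper4.RegK
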