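import Mathlib
import Cfsg.Agent.Lib.Helper1.PGrp
import Cfsg.Agent.S0029

set_option autoImplicit false
open Pointwise

namespace Cfsg.Agent.Lib.Helper4

/-- an endomorphism of a group of order at most `4` whose order is prime to `6` is trivial -/
theorem fix_of_card_le_four {V : Type*} [Group V] [Finite V] (hV : Nat.card V ≤ 4) (f : V →* V)
    (o : ℕ) (ho : ∀ v, f^[o] v = v) (h6 : o.Coprime 6) : ∀ v, f v = v := by
  classical
  intro v
  by_cases hv : v = 1
  · rw [hv, map_one]
  have ho0 : 0 < o := by
    rcases Nat.eq_zero_or_pos o with h | h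
    · rw [h] at h6; simp at h6
    · exact h
  have hper : Function.IsPeriodicPt f o v := ho v
  set m := Function.minimalPeriod f v with hm
  have hmd : m ∣ o := hper.minimalPeriod_dvd
  have hmpos : 0 < m := hper.minimalPeriod_pos ho0
  have hone : ∀ i, f^[i] 1 = 1 := by
    intro i
    induction i with
    | zero => rfl
    | succ i ih => rw [Function.iterate_succ_apply, map_one, ih]
  have hne : ∀ i, f^[i] v ≠ 1 := by
    intro i hi
    apply hv
    -- apply f^[o * (i+1) - i]
    have h1 : ∀ k, f^[o * k] v = v := by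
      intro k
      induction k with
      | zero => rfl
      | succ k ih => rw [Nat.mul_succ, Function.iterate_add_apply, ho, ih]
    have h2 : o * (i + 1) = (o * (i + 1) - i) + i := by
      have : i ≤ o * (i + 1) := by nlinarith
      omega
    have h3 := h1 (i + 1)
    rw [h2, Function.iterate_add_apply, hi, hone] at h3
    exact h3.symm
  haveI := Fintype.ofFinite V
  have hinj : Set.InjOn (fun i => f^[i] v) (Finset.range m : Set ℕ) := by
    intro i hi j hj e
    have hi' : i ∈ Set.Iio m := by simpa using hi
    have hj' : j ∈ Set.Iio m := by simpa using hj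
    exact Function.iterate_injOn_Iio_minimalPeriod hi' hj' e
  have hcard : m ≤ (Finset.univ.erase (1 : V)).card := by
    have := Finset.card_le_card_of_injOn (s := Finset.range m) (t := Finset.univ.erase (1 : V))
      (fun i => f^[i] v) (by
        intro i _
        simp [hne i]) hinj
    simpa using this
  rw [Finset.card_erase_of_mem (Finset.mem_univ _), Finset.card_univ, ← Nat.card_eq_fintype_card] at hcard
  have hm3 : m ≤ 3 := by omega
  have hmc : m.Coprime 6 := Nat.Coprime.coprime_dvd_left hmd h6
  have hm1 : m = 1 := by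
    interval_cases m
    · rfl
    · exact absurd hmc (by decide)
    · exact absurd hmc (by decide)
  exact Function.minimalPeriod_eq_one_iff_isFixedPt.mp hm1

variable {G : Type*} [Group G]

/-- An element of order prime to `6` normalizing a `2`-group with Frattini quotient of order at most
`4` centralizes it. -/
theorem mem_centralizer_of_frattini_index_le_four [Finite G] {Q : Subgroup G} (hQ : IsPGroup 2 Q)
    (hidx : (frattini Q).index ≤ 4) {g : G} (hg : g ∈ Subgroup.normalizer (Q : Set G))
    (h6 : (orderOf g).Coprime 6) : g ∈ Subgroup.centralizer (Q : Set G) := by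
  have key : ∀ a ∈ Subgroup.normalizer (Q : Set G), (orderOf a).Coprime 6 →
      ∀ k ∈ Q, a * k * a⁻¹ * k⁻¹ ∈ (frattini Q).map Q.subtype := by
    intro a ha ha6 k hk
    set φ : MulAut Q := Q.normalizerMonoidHom ⟨a, ha⟩ with hφ
    have hle : frattini Q ≤ (frattini Q).comap φ.toMonoidHom :=
      (Subgroup.characteristic_iff_le_comap.mp (frattini_characteristic)) φ
    set f : (Q ⧸ frattini Q) →* (Q ⧸ frattini Q) :=
      QuotientGroup.map (frattini Q) (frattini Q) φ.toMonoidHom hle with hf
    have hiter : ∀ (i : ℕ) (y : Q), f^[i] (QuotientGroup.mk y) = QuotientGroup.mk ((φ ^ i) y) := by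
      intro i
      induction i with
      | zero => intro y; rfl
      | succ i ih =>
        intro y
        rw [Function.iterate_succ_apply', ih, pow_succ', MulAut.mul_apply]
        rfl
    have hφo : φ ^ orderOf a = 1 := by
      rw [hφ, ← map_pow]
      have : (⟨a, ha⟩ : Subgroup.normalizer (Q : Set G)) ^ orderOf a = 1 := by
        apply Subtype.ext
        simp [pow_orderOf_eq_one]
      rw [this, map_one]
    have hfix := fix_of_card_le_four (V := Q ⧸ frattini Q) hidx f (orderOf a) (by
      intro v
      obtain ⟨y, rfl⟩ := QuotientGroup.mk_surjective v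
      rw [hiter, hφo]; rfl) ha6 (QuotientGroup.mk ⟨k, hk⟩)
    have h1 : (QuotientGroup.mk (φ ⟨k, hk⟩) : Q ⧸ frattini Q) = QuotientGroup.mk ⟨k, hk⟩ := hfix
    have h2 : φ ⟨k, hk⟩ * (⟨k, hk⟩ : Q)⁻¹ ∈ frattini Q := by
      rw [← QuotientGroup.eq_one_iff, QuotientGroup.mk_mul, h1, ← QuotientGroup.mk_mul,
        mul_inv_cancel]
      rfl
    exact ⟨_, h2, rfl⟩
  have hA : Subgroup.zpowers g ≤ Subgroup.normalizer (Q : Set G) := by rwa [Subgroup.zpowers_le]
  have hres := Cfsg.Agent.S0029.result (Subgroup.zpowers g) Q hA (by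
    rw [Nat.card_zpowers]
    obtain ⟨n, hn⟩ := IsPGroup.iff_card.mp (hQ.to_subgroup (frattini Q))
    rw [hn]
    apply Nat.Coprime.pow_right
    exact Nat.Coprime.coprime_dvd_right (by norm_num : 2 ∣ 6) h6) (by
    intro a ha k hk
    apply key a (hA ha) _ k hk
    have : orderOf a ∣ orderOf g := by
      have h1 := orderOf_dvd_natCard (⟨a, ha⟩ : Subgroup.zpowers g)
      rwa [Subgroup.orderOf_mk, Nat.card_zpowers] at h1
    exact Nat.Coprime.coprime_dvd_left this h6)
  exact hres (Subgroup.mem_zpowers g)

/-- A `2`-group with a cyclic subgroup of index at most `2` has Frattini quotient of order at most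
`4`. -/
theorem frattini_index_le_four_of_cyclic [Finite G] (hG : IsPGroup 2 G) (r : G)
    (hr : Nat.card G ≤ 2 * orderOf r) : (frattini G).index ≤ 4 := by
  haveI : Fact (Nat.Prime 2) := ⟨Nat.prime_two⟩
  have h1 : r ^ 2 ∈ frattini G := (Cfsg.Agent.Lib.Helper1.pgroup_frattini hG).2 r
  have h2 : orderOf (r ^ 2) ≤ Nat.card (frattini G) := by
    rw [← Nat.card_zpowers]
    exact Subgroup.card_le_of_le (by rwa [Subgroup.zpowers_le])
  have h3 : orderOf r ≤ 2 * orderOf (r ^ 2) := by
    apply Nat.le_of_dvd (by have := orderOf_pos (r ^ 2); omega)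
    apply orderOf_dvd_of_pow_eq_one
    rw [pow_mul, pow_orderOf_eq_one]
  have h4 := (frattini G).card_mul_index
  have h5 : 0 < Nat.card (frattini G) := Nat.card_pos
  by_contra hcon
  push Not at hcon
  have : Nat.card (frattini G) * 5 ≤ Nat.card (frattini G) * (frattini G).index :=
    Nat.mul_le_mul_left _ hcon
  omega

end Cfsg.Agent.Lib.Helper4
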