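import Mathlib
import Cfsg.Agent.S5352

set_option autoImplicit false
open Cfsg Cfsg.Agent.Lib.Helper27 Cfsg.Agent.Lib.Helper8 Cfsg.Agent.S5351 Cfsg.Agent.S5352

namespace Cfsg.Agent.Lib.Helper4.TTPrim

variable {G : Type*} [Group G] {D : Set G}

theorem commute_conj_of_commute_mul (hT : Cfsg.IsThreeTranspositionSet D) {d e c : G} (hd : d ∈ D)
    (he : e ∈ D) (hb : c * d * c⁻¹ ∈ D) (hne : e ≠ d) (hc : c * (d * e) = (d * e) * c)
    (hde : Commute d e) : Commute d (c * d * c⁻¹) := by
  set b := c * d * c⁻¹ with hb'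
  set t := d * e with ht
  have hdd := TT.sq hT hd
  have het : e = d * t := by rw [ht, ← mul_assoc, hdd, one_mul]
  have ht1 : t ≠ 1 := by
    intro h
    apply hne
    rw [het, h, mul_one]
  have htt : t ^ 2 = 1 := sq_of_commute hdd (TT.sq hT he) hde
  have htd : Commute t d := (Commute.mul_left (Commute.refl d) hde.symm)
  have htb : Commute t b := by
    have h1 : c * t = t * c := hc
    have h1' : c⁻¹ * t = t * c⁻¹ := by
      calc c⁻¹ * t = c⁻¹ * (t * c) * c⁻¹ := by group
        _ = c⁻¹ * (c * t) * c⁻¹ := by rw [h1]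
        _ = t * c⁻¹ := by group
    have h2 : t * d = d * t := htd
    show t * b = b * t
    calc t * b = (t * c) * d * c⁻¹ := by rw [hb']; group
      _ = c * (t * d) * c⁻¹ := by rw [← h1]; group
      _ = c * d * (t * c⁻¹) := by rw [h2]; group
      _ = b * t := by rw [← h1', hb']; group
  by_contra hdb
  have hdb3 : (d * b) ^ 3 = 1 := by
    rcases TT.commute_or_cube hT hd hb with h | h
    · exact absurd h hdb
    · exact h
  have heb : e * b = t * (d * b) := by
    rw [het, ← htd.eq]; group
  have htdb : Commute t (d * b) := htd.mul_right htb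
  rcases TT.commute_or_cube hT he hb with h | h
  · have h2 := sq_of_commute (TT.sq hT he) (TT.sq hT hb) h
    rw [heb, htdb.mul_pow, htt, one_mul] at h2
    have h3 : d * b = 1 := eq_one_of_pow_coprime h2 hdb3 (by decide)
    apply hdb
    have : b = d := by
      calc b = (d * d) * b := by rw [hdd, one_mul]
        _ = d * (d * b) := by rw [mul_assoc]
        _ = d := by rw [h3, mul_one]
    rw [this]
  · rw [heb, htdb.mul_pow, hdb3, mul_one] at h
    exact ht1 (eq_one_of_pow_coprime htt h (by decide))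

theorem eq_of_commute_conj_of_commute_mul (hT : Cfsg.IsThreeTranspositionSet D) {d e c : G} (hd : d ∈ D)
    (he : e ∈ D) (hb : c * d * c⁻¹ ∈ D) (hc : c * (d * e) = (d * e) * c)
    (hde : ¬ Commute d e) (hcomm : Commute d (c * d * c⁻¹)) : c * d * c⁻¹ = d := by
  set b := c * d * c⁻¹ with hb'
  set t := d * e with ht
  have hdd := TT.sq hT hd
  have hbb := TT.sq hT hb
  have het : e = d * t := by rw [ht, ← mul_assoc, hdd, one_mul]
  have ht1 : t ≠ 1 := by
    intro h
    apply hde
    rw [het, h, mul_one]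
  have ht3 : t ^ 3 = 1 := by
    rcases TT.commute_or_cube hT hd he with h | h
    · exact absurd h hde
    · exact h
  have hdt : d * t = t⁻¹ * d := by
    have : t⁻¹ = e * d := by
      rw [ht, mul_inv_rev, TT.inv hT hd, TT.inv hT he]
    rw [this, ht, mul_assoc e, hdd, mul_one, ← mul_assoc, hdd, one_mul]
  have hct : c * t = t * c := hc
  have hct' : c⁻¹ * t = t * c⁻¹ := by
    calc c⁻¹ * t = c⁻¹ * (t * c) * c⁻¹ := by group
      _ = c⁻¹ * (c * t) * c⁻¹ := by rw [hct]
      _ = t * c⁻¹ := by group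
  have hcti : c * t⁻¹ = t⁻¹ * c := by
    calc c * t⁻¹ = t⁻¹ * (t * c) * t⁻¹ := by group
      _ = t⁻¹ * (c * t) * t⁻¹ := by rw [hct]
      _ = t⁻¹ * c := by group
  have hbt : b * t = t⁻¹ * b := by
    calc b * t = c * d * (c⁻¹ * t) := by rw [hb']; group
      _ = c * (d * t) * c⁻¹ := by rw [hct']; group
      _ = (c * t⁻¹) * d * c⁻¹ := by rw [hdt]; group
      _ = t⁻¹ * b := by rw [hcti, hb']; group
  by_contra hbd
  set s := d * b with hs
  have hs2 : s ^ 2 = 1 := sq_of_commute hdd hbb hcomm
  have hs1 : s ≠ 1 := by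
    intro h
    apply hbd
    calc b = (d * d) * b := by rw [hdd, one_mul]
      _ = d * (d * b) := by rw [mul_assoc]
      _ = d := by rw [← hs, h, mul_one]
  have hst : Commute s t := by
    show s * t = t * s
    calc s * t = d * (b * t) := by rw [hs]; group
      _ = (d * t⁻¹) * b := by rw [hbt]; group
      _ = t * s := by
        have : d * t⁻¹ = t * d := by
          calc d * t⁻¹ = t * (t⁻¹ * d) * t⁻¹ := by group
            _ = t * (d * t) * t⁻¹ := by rw [hdt]
            _ = t * d := by group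
        rw [this, hs]; group
  have htb : t * b = b * t⁻¹ := by
    calc t * b = t * (b * t) * t⁻¹ := by group
      _ = t * (t⁻¹ * b) * t⁻¹ := by rw [hbt]
      _ = b * t⁻¹ := by group
  have heb : e * b = s * t⁻¹ := by
    calc e * b = d * (t * b) := by rw [het]; group
      _ = s * t⁻¹ := by rw [htb, hs]; group
  have hst' : Commute s t⁻¹ := hst.inv_right
  rcases TT.commute_or_cube hT he hb with h | h
  · have h2 := sq_of_commute (TT.sq hT he) hbb h
    rw [heb, hst'.mul_pow, hs2, one_mul, inv_pow, inv_eq_one] at h2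
    exact ht1 (eq_one_of_pow_coprime h2 ht3 (by decide))
  · rw [heb, hst'.mul_pow, inv_pow, ht3, inv_one, mul_one] at h
    exact hs1 (eq_one_of_pow_coprime hs2 h (by decide))

/-- the product of two different members of `D` never centralizes a component -/
theorem not_centralize_mul [Finite G] (hD : Cfsg.IsThreeTranspositionClass D) {K : Subgroup G}
    (hK : Cfsg.IsComponent K) {a b : G} (ha : a ∈ D) (hb : b ∈ D) (hne : a ≠ b) :
    ¬ (∀ k ∈ K, Commute k (a * b)) := by
  intro h
  have hT := hD.1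
  by_cases hab : Commute a b
  · obtain ⟨k, hk, hnc⟩ := exists_noncommuting hD hK ha
    exact hnc (commute_conj_of_commute_mul hT ha hb (TTC.conj_mem hD k ha) (Ne.symm hne) (h k hk).eq hab)
  · obtain ⟨k, hk, hne', hc⟩ := exists_commuting hD hK ha
    exact hne' (eq_of_commute_conj_of_commute_mul hT ha hb (TTC.conj_mem hD k ha) (h k hk).eq hab hc)

/-- commuting members of `D` agree modulo a component -/
theorem mul_mem_of_commute [Finite G] (hD : Cfsg.IsThreeTranspositionClass D) {K : Subgroup G}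
    (hK : Cfsg.IsComponent K) {a b : G} (ha : a ∈ D) (hb : b ∈ D) (hc : Commute a b) : a * b ∈ K := by
  have hT := hD.1
  obtain ⟨hsub, hQS⟩ := (isComponent_iff K).mp hK
  have hKn := component_normal hD hK
  have haa := TT.sq hT ha
  have hbb := TT.sq hT hb
  have hex : ∃ k ∈ K, ¬ Commute b (k * a * k⁻¹) := by
    by_contra hcon
    push Not at hcon
    set E : Set G := {x | ∃ c ∈ K, x = c * a * c⁻¹} with hE
    set S : Set G := {y | ∃ e ∈ E, ∃ f ∈ E, y = e * f} with hS
    have hEconj : ∀ k ∈ K, ∀ e ∈ E, k * e * k⁻¹ ∈ E := by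
      rintro k hk _ ⟨c, hc, rfl⟩
      exact ⟨k * c, mul_mem hk hc, by group⟩
    have hSconj : ∀ k ∈ K, ∀ s ∈ S, k * s * k⁻¹ ∈ S := by
      rintro k hk _ ⟨e, he, f, hf, rfl⟩
      exact ⟨_, hEconj k hk e he, _, hEconj k hk f hf, by group⟩
    have hn : K ≤ Subgroup.normalizer (Subgroup.closure S : Set G) := by
      intro k hk
      exact mem_normalizer_closure S k (hSconj k hk) (hSconj k⁻¹ (inv_mem hk))
    have haE : a ∈ E := ⟨1, one_mem _, by simp⟩
    have hmem : ∀ k ∈ K, k * a * k⁻¹ * a⁻¹ ∈ Subgroup.closure S := by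
      intro k hk
      apply Subgroup.subset_closure
      refine ⟨k * a * k⁻¹, ⟨k, hk, rfl⟩, a, haE, ?_⟩
      rw [TT.inv hT ha]
    have hSK : Subgroup.closure S ≤ K := by
      rw [Subgroup.closure_le]
      rintro _ ⟨_, ⟨c, hc, rfl⟩, _, ⟨c', hc', rfl⟩, rfl⟩
      have : c * a * c⁻¹ * (c' * a * c'⁻¹) = c * (a * (c⁻¹ * c') * a⁻¹) * c'⁻¹ := by
        rw [TT.inv hT ha]; group
      rw [this]
      exact mul_mem (mul_mem hc (hKn.conj_mem _ (mul_mem (inv_mem hc) hc') a)) (inv_mem hc')
    have hbS : Subgroup.closure S ≤ Subgroup.centralizer {b} := by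
      rw [Subgroup.closure_le]
      rintro _ ⟨_, ⟨c, hc, rfl⟩, _, ⟨c', hc', rfl⟩, rfl⟩
      exact Subgroup.mem_centralizer_singleton_iff.mpr ((hcon c hc).mul_right (hcon c' hc')).symm.eq
    rcases hQS.2.2 _ hSK hn with h | h
    · apply not_centralize hD hK hb
      intro k hk
      rw [← h] at hk
      exact (Subgroup.mem_centralizer_singleton_iff.mp (hbS hk))
    · apply not_centralize hD hK ha
      have hsol : Group.IsSolvable (Subgroup.closure S) := by
        apply Group.isSolvable_of_comm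
        intro x y
        apply Subtype.ext
        have h5 := (Subgroup.commutator_eq_bot_iff_le_centralizer).mp h
        exact (Subgroup.mem_centralizer_iff.mp (h5 x.2) y (hSK y.2)).symm
      exact component_commute hK haa hsol hn hmem
  obtain ⟨k, hk, hnc⟩ := hex
  have hcD : k * a * k⁻¹ ∈ D := TTC.conj_mem hD k ha
  have h3' : (b * (k * a * k⁻¹)) ^ 3 = 1 := by
    rcases TT.commute_or_cube hT hb hcD with h | h
    · exact absurd h hnc
    · exact h
  have h2' : (b * a) ^ 2 = 1 := sq_of_commute hbb haa hc.symm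
  have hφ : QuotientGroup.mk' K (b * (k * a * k⁻¹)) = QuotientGroup.mk' K (b * a) := by
    have hk1 : QuotientGroup.mk' K k = 1 := by
      rw [← MonoidHom.mem_ker, QuotientGroup.ker_mk']; exact hk
    simp only [map_mul, map_inv, hk1, one_mul, inv_one, mul_one]
  have h6 : QuotientGroup.mk' K (b * a) = 1 := by
    apply eq_one_of_pow_coprime (m := 2) (n := 3)
    · rw [← map_pow, h2', map_one]
    · rw [← hφ, ← map_pow, h3', map_one]
    · decide
  rw [← MonoidHom.mem_ker, QuotientGroup.ker_mk'] at h6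
  rw [hc.eq]
  exact h6

end Cfsg.Agent.Lib.Helper4.TTPrim
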