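import Mathlib
import Cfsg.Agent.Lib.Helper4.TTPrim

set_option autoImplicit false
open Cfsg Cfsg.Agent.Lib.Helper27 Cfsg.Agent.Lib.Helper8 Cfsg.Agent.S5351 Cfsg.Agent.S5352

namespace Cfsg.Agent.Lib.Helper4.TTPrim

variable {G : Type*} [Group G] {D : Set G}

/-- block criterion -/
theorem mem_normalizer_of_block {B : Set G}
    (hB : ∀ g : G, (fun x => g * x * g⁻¹) '' B = B ∨ Disjoint ((fun x => g * x * g⁻¹) '' B) B)
    {g x : G} (hx : x ∈ B) (hgx : g * x * g⁻¹ ∈ B) : g ∈ Subgroup.normalizer B := by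
  have h1 : (fun x => g * x * g⁻¹) '' B = B := by
    rcases hB g with h | h
    · exact h
    · exact absurd hgx (Set.disjoint_left.mp h ⟨x, hx, rfl⟩)
  rw [Subgroup.mem_set_normalizer_iff]
  intro h
  constructor
  · intro hh
    rw [← h1]
    exact ⟨h, hh, rfl⟩
  · intro hh
    rw [← h1] at hh
    obtain ⟨y, hy, hyh⟩ := hh
    have : y = h := by
      have h2 : g * y * g⁻¹ = g * h * g⁻¹ := hyh
      simpa using h2
    rwa [← this]

theorem conj_mem_of_mem_normalizer {B : Set G} {g x : G} (hg : g ∈ Subgroup.normalizer B) (hx : x ∈ B) :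
    g * x * g⁻¹ ∈ B := (Subgroup.mem_set_normalizer_iff.mp hg x).mp hx

/-- products of two members of a conjugate of a block normalize the block -/
theorem conj_mul_mem_normalizer (hD : Cfsg.IsThreeTranspositionClass D) {B : Set G} (hBD : B ⊆ D)
    (hB : ∀ g : G, (fun x => g * x * g⁻¹) '' B = B ∨ Disjoint ((fun x => g * x * g⁻¹) '' B) B)
    {a b : G} (ha : a ∈ B) (hb : b ∈ B) (h : G) : h * (a * b) * h⁻¹ ∈ Subgroup.normalizer B := by
  have hT := hD.1
  set N := Subgroup.normalizer B with hN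
  have crit : ∀ {g x : G}, x ∈ B → g * x * g⁻¹ ∈ B → g ∈ N := fun hx hgx => mem_normalizer_of_block hB hx hgx
  have self_mem : ∀ x ∈ B, x ∈ N := fun x hx => crit hx (by simpa using hx)
  set a' := h * a * h⁻¹ with ha'
  set b' := h * b * h⁻¹ with hb'
  have hab' : h * (a * b) * h⁻¹ = a' * b' := by rw [ha', hb']; group
  rw [hab']
  have ha'D : a' ∈ D := TTC.conj_mem hD h (hBD ha)
  have hb'D : b' ∈ D := TTC.conj_mem hD h (hBD hb)
  obtain ⟨e, heB⟩ : ∃ e, e ∈ B := ⟨a, ha⟩
  have heD : e ∈ D := hBD heB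
  set e₀ := h⁻¹ * e * h with he₀
  by_cases hcase : e₀ ∈ N
  · -- each of a', b' normalizes B
    have sub : ∀ c ∈ B, h * c * h⁻¹ ∈ N := by
      intro c hc
      have hcD : h * c * h⁻¹ ∈ D := TTC.conj_mem hD h (hBD hc)
      by_cases hcm : Commute (h * c * h⁻¹) e
      · apply crit heB
        rw [hcm.eq, mul_inv_cancel_right]; exact heB
      · have hbr := TT.braid hT hcD heD hcm
        -- e * c' * e = c' * e * c'
        have hy : e₀ * c * e₀⁻¹ ∈ B := conj_mem_of_mem_normalizer hcase hc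
        have h1 : (h⁻¹ * (h * c * h⁻¹)) * e * (h⁻¹ * (h * c * h⁻¹))⁻¹ = e₀ * c * e₀⁻¹ := by
          have h2 : (h * c * h⁻¹) * e * (h * c * h⁻¹)⁻¹ = e * (h * c * h⁻¹) * e⁻¹ := by
            rw [TT.inv hT hcD, TT.inv hT heD]; exact hbr.symm
          calc (h⁻¹ * (h * c * h⁻¹)) * e * (h⁻¹ * (h * c * h⁻¹))⁻¹
              = h⁻¹ * ((h * c * h⁻¹) * e * (h * c * h⁻¹)⁻¹) * h := by group
            _ = h⁻¹ * (e * (h * c * h⁻¹) * e⁻¹) * h := by rw [h2]
            _ = e₀ * c * e₀⁻¹ := by rw [he₀]; group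
        have h3 : h⁻¹ * (h * c * h⁻¹) ∈ N := crit heB (by rw [h1]; exact hy)
        have h4 : h⁻¹ * (h * c * h⁻¹) = c * h⁻¹ := by group
        rw [h4] at h3
        have h5 : h⁻¹ ∈ N := by
          have := N.mul_mem (N.inv_mem (self_mem c hc)) h3
          simpa using this
        have h6 : h ∈ N := by simpa using N.inv_mem h5
        exact N.mul_mem (N.mul_mem h6 (self_mem c hc)) h5
    exact N.mul_mem (sub a ha) (sub b hb)
  · have nc : ∀ c ∈ B, ¬ Commute (h * c * h⁻¹) e := by
      intro c hc hcm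
      apply hcase
      apply crit hc
      have h1 : Commute c e₀ := by
        have h2 : e = h * e₀ * h⁻¹ := by rw [he₀]; group
        rw [h2, commute_conj_iff] at hcm
        exact hcm
      rw [← h1.eq]; simpa using hc
    have hbra := TT.braid hT ha'D heD (nc a ha)
    have hbrb := TT.braid hT hb'D heD (nc b hb)
    -- n = (e h)⁻¹ a' ∈ N
    have hn : (e * h)⁻¹ * a' ∈ N := by
      apply crit heB
      have h1 : ((e * h)⁻¹ * a') * e * ((e * h)⁻¹ * a')⁻¹ = (e * h)⁻¹ * (a' * e * a') * (e * h) := by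
        rw [mul_inv_rev _ a', TT.inv hT ha'D]; group
      rw [h1, ← hbra]
      have h2 : (e * h)⁻¹ * (e * a' * e) * (e * h) = h⁻¹ * (e⁻¹ * e) * a' * (e * e) * h := by group
      rw [h2, TT.sq hT heD, ha']
      have h3 : h⁻¹ * (e⁻¹ * e) * (h * a * h⁻¹) * 1 * h = a := by group
      rw [h3]
      exact ha
    apply crit heB
    have h1 : a' * b' * e * (a' * b')⁻¹ = a' * (b' * e * b') * a' := by
      rw [mul_inv_rev, TT.inv hT ha'D, TT.inv hT hb'D]; group
    rw [h1, ← hbrb]
    have h2 : a' * (e * b' * e) * a' = ((e * h)⁻¹ * a')⁻¹ * b * ((e * h)⁻¹ * a')⁻¹⁻¹ := by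
      have hai : a'⁻¹ = a' := TT.inv hT ha'D
      have hei : e⁻¹ = e := TT.inv hT heD
      calc a' * (e * b' * e) * a' = a'⁻¹ * (e * b' * e⁻¹) * a' := by rw [hai, hei]
        _ = ((e * h)⁻¹ * a')⁻¹ * b * ((e * h)⁻¹ * a')⁻¹⁻¹ := by rw [hb']; group
    rw [h2]
    exact conj_mem_of_mem_normalizer (N.inv_mem hn) hb

theorem primitive_of_index_le_two [Finite G] (hD : Cfsg.IsThreeTranspositionClass D)
    (hD2 : ∃ a ∈ D, ∃ b ∈ D, a ≠ b) {K : Subgroup G} (hK : Cfsg.IsComponent K) (hidx : K.index ≤ 2) :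
    Cfsg.IsPrimitiveUnderConj D := by
  have hT := hD.1
  obtain ⟨hsub, hQS⟩ := (isComponent_iff K).mp hK
  have hKn := component_normal hD hK
  refine ⟨fun a ha b hb => TTC.exists_conj hD ha hb, hD2, ?_⟩
  intro B hBD hB
  by_cases hss : B.Subsingleton
  · exact Or.inl hss
  right
  rw [Set.not_subsingleton_iff] at hss
  obtain ⟨a, ha, b, hb, hne⟩ := hss
  set N := Subgroup.normalizer B with hN
  set T : Set G := {y | ∃ h : G, ∃ a ∈ B, ∃ b ∈ B, y = h * (a * b) * h⁻¹} with hTdef
  have hTN : Subgroup.closure T ≤ N := by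
    rw [Subgroup.closure_le]
    rintro _ ⟨h, a, ha, b, hb, rfl⟩
    exact conj_mul_mem_normalizer hD hBD hB ha hb h
  have hHn : (Subgroup.closure T).Normal := by
    refine ⟨fun x hx g => conj_mem_closure T g ?_ x hx⟩
    rintro _ ⟨h, a, ha, b, hb, rfl⟩
    exact ⟨g * h, a, ha, b, hb, by group⟩
  have hKH : K ≤ Subgroup.closure T := by
    rcases hQS.le_or_commutator_eq_bot hsub (subnIn_top.mpr hHn.isSubnormal) with h | h
    · exact h
    · exfalso
      apply not_centralize_mul hD hK (hBD ha) (hBD hb) hne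
      intro k hk
      have h1 := (Subgroup.commutator_eq_bot_iff_le_centralizer).mp h hk
      have h2 : a * b ∈ Subgroup.closure T := Subgroup.subset_closure ⟨1, a, ha, b, hb, by simp⟩
      exact (Subgroup.mem_centralizer_iff.mp h1 _ h2).symm
  have haN : a ∈ N := mem_normalizer_of_block hB ha (by simpa using ha)
  have hNtop : ∀ g : G, g ∈ N := by
    intro g
    by_cases hg : g ∈ K
    · exact hTN (hKH hg)
    have hidx2 : K.index = 2 := by
      have h0 : K.index ≠ 0 := Subgroup.index_ne_zero_of_finite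
      have h1 : K.index ≠ 1 := by
        intro h1
        rw [Subgroup.index_eq_one] at h1
        exact hg (h1 ▸ Subgroup.mem_top g)
      omega
    by_cases haK : a ∈ K
    · exfalso
      apply hg
      have : Subgroup.closure D ≤ K := by
        rw [Subgroup.closure_le]
        intro x hx
        obtain ⟨u, rfl⟩ := TTC.exists_conj hD (hBD ha) hx
        exact hKn.conj_mem a haK u
      rw [hD.2.2] at this
      exact this (Subgroup.mem_top g)
    · have h1 : a * g ∈ K := (Subgroup.mul_mem_iff_of_index_two hidx2).mpr (by simp [haK, hg])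
      have h2 := N.mul_mem (N.inv_mem haN) (hTN (hKH h1))
      simpa using h2
  apply Set.Subset.antisymm hBD
  intro x hx
  obtain ⟨u, rfl⟩ := TTC.exists_conj hD (hBD ha) hx
  exact conj_mem_of_mem_normalizer (hNtop u) ha

theorem index_le_two_of_forall_mul_mem [Finite G] (hD : Cfsg.IsThreeTranspositionClass D) {K : Subgroup G}
    [hKn : K.Normal] {d : G} (hd : d ∈ D) (h : ∀ x ∈ D, d * x ∈ K) : K.index ≤ 2 := by
  have hT := hD.1
  have htop : Subgroup.zpowers d ⊔ K = ⊤ := by
    rw [eq_top_iff, ← hD.2.2, Subgroup.closure_le]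
    intro x hx
    have h1 : x = d * (d * x) := by rw [← mul_assoc, TT.sq hT hd, one_mul]
    show x ∈ Subgroup.zpowers d ⊔ K
    rw [h1]
    exact mul_mem (Subgroup.mem_sup_left (Subgroup.mem_zpowers d)) (Subgroup.mem_sup_right (h x hx))
  have h1 : K.relIndex (Subgroup.zpowers d ⊔ K) = K.relIndex (Subgroup.zpowers d) := Subgroup.relIndex_sup_right _ _
  rw [htop, Subgroup.relIndex_top_right] at h1
  have h2 : K.relIndex (Subgroup.zpowers d) ∣ Nat.card (Subgroup.zpowers d) := Subgroup.index_dvd_card _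
  rw [Nat.card_zpowers, hT.1 d hd, ← h1] at h2
  exact Nat.le_of_dvd (by norm_num) h2

theorem index_le_two_of_connected [Finite G] (hD : Cfsg.IsThreeTranspositionClass D) {K : Subgroup G}
    (hK : Cfsg.IsComponent K) (hconn : (Cfsg.commutingGraph D).Connected) : K.index ≤ 2 := by
  have hT := hD.1
  haveI hKn := component_normal hD hK
  have hwalk : ∀ (u v : D), (Cfsg.commutingGraph D).Walk u v → (u : G) * (v : G) ∈ K := by
    intro u v w
    induction w with
    | nil => rw [TT.sq hT (Subtype.mem _)]; exact one_mem _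
    | @cons u v w hadj _ ih =>
      have hc : Commute (u : G) (v : G) := by
        have := hadj
        unfold Cfsg.commutingGraph at this
        rw [SimpleGraph.fromRel_adj] at this
        rcases this.2 with h | h
        · exact h
        · exact h.symm
      have h1 := mul_mem_of_commute hD hK u.2 v.2 hc
      have h2 : (u : G) * (w : G) = ((u : G) * (v : G)) * ((v : G) * (w : G)) := by
        rw [mul_assoc, ← mul_assoc (v : G) (v : G), TT.sq hT v.2, one_mul]
      rw [h2]
      exact mul_mem h1 ih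
  obtain ⟨d⟩ := hconn.nonempty
  apply index_le_two_of_forall_mul_mem hD d.2
  intro x hx
  obtain ⟨w⟩ := hconn.preconnected d ⟨x, hx⟩
  exact hwalk _ _ w

end Cfsg.Agent.Lib.Helper4.TTPrim
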