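import Mathlib
import Cfsg.Agent.Lib.Helper4.TTPrim2

set_option autoImplicit false
open Cfsg Cfsg.Agent.Lib.Helper27 Cfsg.Agent.Lib.Helper8 Cfsg.Agent.S5351 Cfsg.Agent.S5352

namespace Cfsg.Agent.Lib.Helper4.TTPrim

variable {G : Type*} [Group G] {D : Set G}

/-- orbits of a normal subgroup are blocks -/
theorem orbit_block (R : Subgroup G) [hRn : R.Normal] (d : G) (g : G) :
    (fun x => g * x * g⁻¹) '' {x | ∃ u ∈ R, x = u * d * u⁻¹} = {x | ∃ u ∈ R, x = u * d * u⁻¹} ∨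
      Disjoint ((fun x => g * x * g⁻¹) '' {x | ∃ u ∈ R, x = u * d * u⁻¹}) {x | ∃ u ∈ R, x = u * d * u⁻¹} := by
  by_cases h : Disjoint ((fun x => g * x * g⁻¹) '' {x | ∃ u ∈ R, x = u * d * u⁻¹}) {x | ∃ u ∈ R, x = u * d * u⁻¹}
  · exact Or.inr h
  left
  rw [Set.not_disjoint_iff] at h
  obtain ⟨_, ⟨_, ⟨u, hu, rfl⟩, rfl⟩, ⟨u', hu', hx⟩⟩ := h
  have hx' : g * (u * d * u⁻¹) * g⁻¹ = u' * d * u'⁻¹ := hx
  ext y
  constructor
  · rintro ⟨_, ⟨v, hv, rfl⟩, rfl⟩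
    refine ⟨(g * (v * u⁻¹) * g⁻¹) * u', mul_mem (hRn.conj_mem _ (mul_mem hv (inv_mem hu)) g) hu', ?_⟩
    show g * (v * d * v⁻¹) * g⁻¹ = _
    calc g * (v * d * v⁻¹) * g⁻¹
        = (g * (v * u⁻¹) * g⁻¹) * (g * (u * d * u⁻¹) * g⁻¹) * (g * (v * u⁻¹) * g⁻¹)⁻¹ := by group
      _ = (g * (v * u⁻¹) * g⁻¹) * (u' * d * u'⁻¹) * (g * (v * u⁻¹) * g⁻¹)⁻¹ := by rw [hx']
      _ = _ := by group
  · rintro ⟨v, hv, rfl⟩
    refine ⟨(g⁻¹ * (v * u'⁻¹) * g⁻¹⁻¹ * u) * d * (g⁻¹ * (v * u'⁻¹) * g⁻¹⁻¹ * u)⁻¹,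
      ⟨_, mul_mem (hRn.conj_mem _ (mul_mem hv (inv_mem hu')) g⁻¹) hu, rfl⟩, ?_⟩
    show g * ((g⁻¹ * (v * u'⁻¹) * g⁻¹⁻¹ * u) * d * (g⁻¹ * (v * u'⁻¹) * g⁻¹⁻¹ * u)⁻¹) * g⁻¹ = _
    calc g * ((g⁻¹ * (v * u'⁻¹) * g⁻¹⁻¹ * u) * d * (g⁻¹ * (v * u'⁻¹) * g⁻¹⁻¹ * u)⁻¹) * g⁻¹
        = (v * u'⁻¹) * (g * (u * d * u⁻¹) * g⁻¹) * (v * u'⁻¹)⁻¹ := by group
      _ = (v * u'⁻¹) * (u' * d * u'⁻¹) * (v * u'⁻¹)⁻¹ := by rw [hx']
      _ = _ := by group

theorem exists_commuting_partner (hD : Cfsg.IsThreeTranspositionClass D)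
    (hw : ∃ a ∈ D, ∃ b ∈ D, a ≠ b ∧ Commute a b) {d : G} (hd : d ∈ D) :
    ∃ b ∈ D, b ≠ d ∧ Commute d b := by
  obtain ⟨a, ha, b, hb, hne, hc⟩ := hw
  obtain ⟨g, rfl⟩ := TTC.exists_conj hD ha hd
  refine ⟨g * b * g⁻¹, TTC.conj_mem hD g hb, ?_, (commute_conj_iff g).mpr hc⟩
  intro h
  apply hne
  have : g * b * g⁻¹ = g * a * g⁻¹ := h
  simpa using this.symm

theorem pCore_le_center_of_primitive [Finite G] (hD : Cfsg.IsThreeTranspositionClass D)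
    (hw : ∃ a ∈ D, ∃ b ∈ D, a ≠ b ∧ Commute a b) (hprim : Cfsg.IsPrimitiveUnderConj D) :
    Cfsg.pCore 2 G ≤ Subgroup.center G ∧ Cfsg.pCore 3 G ≤ Subgroup.center G := by
  have hD2 : ∃ a ∈ D, ∃ b ∈ D, a ≠ b := hprim.2.1
  obtain ⟨d, hd, -⟩ := id hD2
  have key : ∀ p : ℕ, {x | ∃ u ∈ Cfsg.pCore p G, x = u * d * u⁻¹} ≠ D → Cfsg.pCore p G ≤ Subgroup.center G := by
    intro p hne
    haveI hn : (Cfsg.pCore p G).Normal := Cfsg.Agent.Lib.Helper27.pCore_normal p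
    by_contra hcon
    obtain ⟨u, hu, hmv⟩ := exists_moved hD _ hcon hd
    rcases hprim.2.2 {x | ∃ u ∈ Cfsg.pCore p G, x = u * d * u⁻¹} (by
        rintro _ ⟨u, _, rfl⟩; exact TTC.conj_mem hD u hd) (orbit_block _ d) with h | h
    · exact hmv (h ⟨u, hu, rfl⟩ ⟨1, one_mem _, by simp⟩)
    · exact hne h
  constructor
  · apply key
    intro h
    rw [← (Cfsg.Agent.S5349.result hD hD2 hd).2] at h
    obtain ⟨e, he, hne⟩ := TTC.exists_not_commute hD hD2 hd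
    have h1 : e ∈ {v : G | v ∈ D ∧ ∀ e ∈ D, Commute v e ↔ Commute d e} := by rw [h]; exact he
    exact hne (((h1.2 d hd).mpr (Commute.refl d)).symm)
  · apply key
    intro h
    rw [← (Cfsg.Agent.S5350.result hD hD2 hd).2] at h
    obtain ⟨b, hb, hne, hc⟩ := exists_commuting_partner hD hw hd
    have h1 : b ∈ {w : G | w ∈ D ∧ {y : G | y ∈ D ∧ y ≠ d ∧ Commute d y} = {y : G | y ∈ D ∧ y ≠ w ∧ Commute w y}} := by
      rw [h]; exact hb
    have h2 : b ∈ {y : G | y ∈ D ∧ y ≠ d ∧ Commute d y} := ⟨hb, hne, hc⟩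
    rw [h1.2] at h2
    exact h2.2.1 rfl

/-- conjugation as a graph homomorphism of the commuting graph -/
def conjHom (hD : Cfsg.IsThreeTranspositionClass D) (g : G) :
    Cfsg.commutingGraph D →g Cfsg.commutingGraph D where
  toFun u := ⟨g * u * g⁻¹, TTC.conj_mem hD g u.2⟩
  map_rel' := by
    intro a b hab
    unfold Cfsg.commutingGraph at hab ⊢
    rw [SimpleGraph.fromRel_adj] at hab ⊢
    refine ⟨?_, ?_⟩
    · intro h
      apply hab.1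
      have h1 : g * (a : G) * g⁻¹ = g * (b : G) * g⁻¹ := congrArg Subtype.val h
      exact Subtype.ext (by simpa using h1)
    · rcases hab.2 with h | h
      · exact Or.inl ((commute_conj_iff g).mpr h)
      · exact Or.inr ((commute_conj_iff g).mpr h)

theorem connected_of_primitive (hD : Cfsg.IsThreeTranspositionClass D)
    (hw : ∃ a ∈ D, ∃ b ∈ D, a ≠ b ∧ Commute a b) (hprim : Cfsg.IsPrimitiveUnderConj D) :
    (Cfsg.commutingGraph D).Connected := by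
  obtain ⟨d, hd, -⟩ := id hprim.2.1
  set Γ := Cfsg.commutingGraph D with hΓ
  set B : Set G := {x | ∃ hx : x ∈ D, Γ.Reachable ⟨d, hd⟩ ⟨x, hx⟩} with hB
  have hmap : ∀ (g : G) (u v : D), Γ.Reachable u v →
      Γ.Reachable ⟨g * u * g⁻¹, TTC.conj_mem hD g u.2⟩ ⟨g * v * g⁻¹, TTC.conj_mem hD g v.2⟩ :=
    fun g u v h => h.map (conjHom hD g)
  have hblock : ∀ g : G, (fun x => g * x * g⁻¹) '' B = B ∨ Disjoint ((fun x => g * x * g⁻¹) '' B) B := by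
    intro g
    by_cases h : Disjoint ((fun x => g * x * g⁻¹) '' B) B
    · exact Or.inr h
    left
    rw [Set.not_disjoint_iff] at h
    obtain ⟨_, ⟨y, ⟨hy, hry⟩, rfl⟩, ⟨hx, hrx⟩⟩ := h
    have h1 : Γ.Reachable ⟨d, hd⟩ ⟨g * d * g⁻¹, TTC.conj_mem hD g hd⟩ :=
      hrx.trans (hmap g _ _ hry).symm
    ext z
    constructor
    · rintro ⟨w, ⟨hw', hrw⟩, rfl⟩
      exact ⟨TTC.conj_mem hD g hw', h1.trans (hmap g _ _ hrw)⟩
    · rintro ⟨hz, hrz⟩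
      refine ⟨g⁻¹ * z * g⁻¹⁻¹, ⟨TTC.conj_mem hD g⁻¹ hz, ?_⟩, by group⟩
      have h2 := hmap g⁻¹ _ _ h1
      have h3 := hmap g⁻¹ _ _ hrz
      have e1 : (⟨g⁻¹ * ((⟨g * d * g⁻¹, TTC.conj_mem hD g hd⟩ : D) : G) * g⁻¹⁻¹,
          TTC.conj_mem hD g⁻¹ (TTC.conj_mem hD g hd)⟩ : D) = ⟨d, hd⟩ := Subtype.ext (by group)
      rw [e1] at h2
      exact h2.symm.trans h3
  obtain ⟨b, hb, hne, hc⟩ := exists_commuting_partner hD hw hd
  have hBD : B ⊆ D := fun x hx => hx.1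
  have hdB : d ∈ B := ⟨hd, SimpleGraph.Reachable.refl _⟩
  have hbB : b ∈ B := by
    refine ⟨hb, SimpleGraph.Adj.reachable ?_⟩
    rw [hΓ]
    unfold Cfsg.commutingGraph
    rw [SimpleGraph.fromRel_adj]
    exact ⟨fun h => hne (congrArg Subtype.val h).symm, Or.inl hc⟩
  have hBeq : B = D := by
    rcases hprim.2.2 B hBD hblock with h | h
    · exact absurd (h hbB hdB) hne
    · exact h
  haveI : Nonempty D := ⟨⟨d, hd⟩⟩
  refine SimpleGraph.Connected.mk ?_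
  intro u v
  have hu : (u : G) ∈ B := by rw [hBeq]; exact u.2
  have hv : (v : G) ∈ B := by rw [hBeq]; exact v.2
  obtain ⟨_, hu'⟩ := hu
  obtain ⟨_, hv'⟩ := hv
  exact hu'.symm.trans hv'

/-- elements centralizing a component are central -/
theorem mem_center_of_centralize [Finite G] (hD : Cfsg.IsThreeTranspositionClass D) {K : Subgroup G}
    (hK : Cfsg.IsComponent K) {z : G} (hz : ∀ k ∈ K, Commute k z) : z ∈ Subgroup.center G := by
  have hT := hD.1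
  have hKn := component_normal hD hK
  rw [Subgroup.mem_center_iff]
  apply TTC.eq_of_forall_commute hD
  intro d hd
  by_contra hcon
  have hne : z * d * z⁻¹ ≠ d := by
    intro h
    apply hcon
    show z * d = d * z
    calc z * d = (z * d * z⁻¹) * z := by group
      _ = d * z := by rw [h]
  apply not_centralize_mul hD hK (TTC.conj_mem hD z hd) hd hne
  intro k hk
  have h1 : z * d * z⁻¹ * d = z * (d * z⁻¹ * d⁻¹) := by rw [TT.inv hT hd]; group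
  rw [h1]
  apply (hz k hk).mul_right
  have h2 := hz (d⁻¹ * k * d⁻¹⁻¹) (hKn.conj_mem k hk d⁻¹)
  have h3 : Commute (d⁻¹ * k * d⁻¹⁻¹) z⁻¹ := h2.inv_right
  have h4 : k = d * (d⁻¹ * k * d⁻¹⁻¹) * d⁻¹ := by group
  rw [h4, commute_conj_iff]
  exact h3

theorem commutator_eq_of_index_le_two [Finite G] (hD : Cfsg.IsThreeTranspositionClass D) {K : Subgroup G}
    (hK : Cfsg.IsComponent K) (hidx : K.index ≤ 2) : commutator G = K := by
  obtain ⟨hsub, hQS⟩ := (isComponent_iff K).mp hK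
  haveI hKn := component_normal hD hK
  apply le_antisymm
  · rw [← Subgroup.Normal.quotient_commutative_iff_commutator_le]
    have hcard : Nat.card (G ⧸ K) ≤ 2 := hidx
    haveI : IsCyclic (G ⧸ K) := by
      have h0 : 0 < Nat.card (G ⧸ K) := Nat.card_pos
      rcases (by omega : Nat.card (G ⧸ K) = 1 ∨ Nat.card (G ⧸ K) = 2) with h | h
      · haveI : Subsingleton (G ⧸ K) := (Nat.card_eq_one_iff_unique.mp h).1
        infer_instance
      · haveI : Fact (Nat.Prime 2) := ⟨Nat.prime_two⟩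
        exact isCyclic_of_prime_card h
    exact ⟨⟨fun a b => IsCyclic.commGroup.mul_comm a b⟩⟩
  · rw [commutator_def]
    conv_lhs => rw [← hQS.1]
    exact Subgroup.commutator_mono le_top le_top

end Cfsg.Agent.Lib.Helper4.TTPrim
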